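import Cfsg.Agent.Lib.Hall.Solvable

/-! Finite groups with a core-free maximal subgroup. -/

set_option autoImplicit false

namespace Cfsg.Agent.Lib.Hall

open scoped Pointwise
open Subgroup Cfsg.Agent.Lib.Coprime

variable {G : Type*} [Group G] {U : Subgroup G}

theorem eq_bot_of_le_of_core_eq_bot (hcore : U.normalCore = ⊥) {N : Subgroup G} [N.Normal] (h : N ≤ U) :
    N = ⊥ :=
  eq_bot_iff.mpr ((normal_le_normalCore.mpr h).trans hcore.le)

theorem sup_eq_top_of_core_eq_bot (hU : IsCoatom U) (hcore : U.normalCore = ⊥) {N : Subgroup G}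
    [N.Normal] (hN : N ≠ ⊥) : N ⊔ U = ⊤ :=
  hU.2 _ (lt_of_le_of_ne le_sup_right fun h =>
    hN (eq_bot_of_le_of_core_eq_bot hcore (le_sup_left.trans h.ge)))

theorem centralizer_inf_eq_bot (hU : IsCoatom U) (hcore : U.normalCore = ⊥) {N : Subgroup G}
    [N.Normal] (hN : N ≠ ⊥) : centralizer (N : Set G) ⊓ U = ⊥ := by
  have hn : (centralizer (N : Set G) ⊓ U).Normal := by
    refine normalizer_eq_top_iff.mp (eq_top_iff.mpr
      ((sup_eq_top_of_core_eq_bot hU hcore hN).ge.trans (sup_le ?_ ?_)))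
    · refine le_trans ?_ (centralizer_le_normalizer _)
      intro n hn
      rw [mem_centralizer_iff]
      intro z hz
      exact (mem_centralizer_iff.mp hz.1 n hn).symm
    · exact (le_inf le_normalizer_of_normal le_normalizer).trans inf_normalizer_le_normalizer_inf
  exact eq_bot_of_le_of_core_eq_bot hcore inf_le_right

theorem centralizer_minimal (hU : IsCoatom U) (hcore : U.normalCore = ⊥) {N : Subgroup G} [N.Normal]
    (hN : N ≠ ⊥) : ∀ K : Subgroup G, K.Normal → K ≤ centralizer (N : Set G) →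
      K = ⊥ ∨ K = centralizer (N : Set G) := by
  intro K hK hle
  refine or_iff_not_imp_left.mpr fun hne => le_antisymm hle fun c hc => ?_
  have hc' : c ∈ K ⊔ U := (sup_eq_top_of_core_eq_bot hU hcore hne).symm ▸ mem_top c
  rw [← SetLike.mem_coe, normal_mul] at hc'
  obtain ⟨k, hk, u, hu, rfl⟩ := hc'
  have hu' : u ∈ centralizer (N : Set G) ⊓ U :=
    ⟨((centralizer (N : Set G)).mul_mem_cancel_left (hle hk)).mp hc, hu⟩
  rw [centralizer_inf_eq_bot hU hcore hN, mem_bot] at hu'
  show k * u ∈ K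
  rw [hu', mul_one]; exact hk

theorem inf_eq_bot_of_le_centralizer (hU : IsCoatom U) (hcore : U.normalCore = ⊥) {N A : Subgroup G}
    [N.Normal] (hN : N ≠ ⊥) (hA : A ≤ centralizer (N : Set G)) : A ⊓ U = ⊥ :=
  eq_bot_iff.mpr ((inf_le_inf_right U hA).trans (centralizer_inf_eq_bot hU hcore hN).le)

theorem isComplement'_of_normal (hU : IsCoatom U) (hcore : U.normalCore = ⊥) {A N : Subgroup G}
    [A.Normal] [N.Normal] (hA0 : A ≠ ⊥) (hN : N ≠ ⊥) (hA : A ≤ centralizer (N : Set G)) :
    IsComplement' A U :=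
  isComplement'_of_disjoint_and_mul_eq_univ
    (disjoint_iff.mpr (inf_eq_bot_of_le_centralizer hU hcore hN hA))
    (by rw [← normal_mul, sup_eq_top_of_core_eq_bot hU hcore hA0, coe_top])

theorem centralizer_eq_self (hU : IsCoatom U) (hcore : U.normalCore = ⊥) {N : Subgroup G} [N.Normal]
    [IsMulCommutative N] (hN : N ≠ ⊥) : centralizer (N : Set G) = N :=
  ((centralizer_minimal hU hcore hN N inferInstance (le_centralizer N)).resolve_left hN).symm

end Cfsg.Agent.Lib.Hall
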