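import Cfsg.Agent.Lib.Hall.Huppert
import Cfsg.Agent.Lib.Coprime.Product

/-! Further supersolvability criteria and conjugacy of supersolvable Hall subgroups. -/

set_option autoImplicit false

namespace Cfsg.Agent.Lib.Hall

open scoped Pointwise
open Subgroup Cfsg.Agent.Lib.Coprime

universe u

theorem hasOrders_of_equiv {G H : Type*} [Group G] [Group H] (e : G ≃* H)
    (h : HasSubgroupOfEveryOrder G) : HasSubgroupOfEveryOrder H := fun d hd => by
  obtain ⟨D, hD⟩ := h d (by rwa [Nat.card_congr e.toEquiv])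
  exact ⟨D.map (e : G →* H), by rw [card_map_of_injective e.injective, hD]⟩

theorem hasOrders_subgroup {G : Type*} [Group G]
    (h : ∀ H : Subgroup G, HasSubgroupOfEveryOrder H) (K : Subgroup G) (L : Subgroup K) :
    HasSubgroupOfEveryOrder L :=
  hasOrders_of_equiv (equivMapOfInjective L K.subtype K.subtype_injective).symm (h _)

theorem card_lt_of_ne_top' {G : Type*} [Group G] [Finite G] {H : Subgroup G} (h : H ≠ ⊤) :
    Nat.card H < Nat.card G :=
  lt_of_le_of_ne (Nat.le_of_dvd Nat.card_pos (card_subgroup_dvd_card H))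
    fun e => h (eq_top_of_card_eq H e)

theorem sylow_normal_of_orders_aux (k : ℕ) : ∀ (G : Type u) [Group G] [Finite G], Nat.card G = k →
    (∀ H : Subgroup G, HasSubgroupOfEveryOrder H) → ∀ (p : ℕ) [Fact p.Prime],
    (∀ q : ℕ, q.Prime → q ∣ Nat.card G → q ≤ p) → ∀ P : Sylow p G, (P : Subgroup G).Normal := by
  induction k using Nat.strongRecOn with | ind k ih => ?_
  intro G _ _ hk h p hp hmax P
  rcases subsingleton_or_nontrivial G with hs | hs
  · rw [Subsingleton.elim (P : Subgroup G) ⊥]; infer_instance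
  let q := (Nat.card G).minFac
  have hq : q.Prime := Nat.minFac_prime Finite.one_lt_card.ne'
  have : Fact q.Prime := ⟨hq⟩
  by_cases hqp : q = p
  · -- a `p`-group
    have hG : IsPGroup p G := by
      refine IsPGroup.of_card (n := (Nat.card G).primeFactorsList.length)
        (Nat.eq_prime_pow_of_unique_prime_dvd Nat.card_pos.ne' fun {d} hd hdd => ?_)
      have h1 := hmax d hd hdd
      have h2 : q ≤ d := Nat.minFac_le_of_dvd hd.two_le hdd
      omega
    have : (P : Subgroup G) = ⊤ := (P.3 (hG.to_subgroup ⊤) le_top).symm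
    rw [this]; infer_instance
  obtain ⟨K₀, hK₀⟩ := hasOrders_of_equiv topEquiv (h ⊤) (Nat.card G / q) (Nat.div_dvd_of_dvd (Nat.minFac_dvd _))
  have hKi : K₀.index = q := by
    refine Nat.eq_of_mul_eq_mul_left (Nat.card_pos (α := K₀)) ?_
    rw [card_mul_index, hK₀, Nat.div_mul_cancel (Nat.minFac_dvd _)]
  have hKn : K₀.Normal := normal_of_index_eq_minFac_card hKi
  have hKne : K₀ ≠ ⊤ := fun e => hq.ne_one (hKi ▸ index_eq_one.mpr e)
  have hPK : (P : Subgroup G) ≤ K₀ := by
    intro x hx
    rw [← QuotientGroup.eq_one_iff]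
    obtain ⟨i, hi⟩ := P.2 ⟨x, hx⟩
    have h1 : orderOf (QuotientGroup.mk' K₀ x) ∣ p ^ i :=
      (orderOf_map_dvd _ x).trans (orderOf_dvd_of_pow_eq_one (congrArg Subtype.val hi))
    have h2 : orderOf (QuotientGroup.mk' K₀ x) ∣ q := hKi ▸ _root_.orderOf_dvd_natCard _
    exact orderOf_eq_one_iff.mp (Nat.eq_one_of_dvd_coprimes
      (Nat.Coprime.pow_left i ((Nat.coprime_primes Fact.out hq).mpr (Ne.symm hqp))) h1 h2)
  have hn := ih _ (hk ▸ card_lt_of_ne_top' hKne) K₀ rfl (hasOrders_subgroup h K₀) p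
    (fun r hr hrd => hmax r hr (hrd.trans (card_subgroup_dvd_card _))) (P.subtype hPK)
  have := (P.subtype hPK).characteristic_of_normal hn
  have hmap : ((P : Subgroup G).subgroupOf K₀).map K₀.subtype = (P : Subgroup G) := by
    rw [subgroupOf_map_subtype, inf_eq_left.mpr hPK]
  rw [← hmap]
  have : ((P : Subgroup G).subgroupOf K₀).Characteristic := P.coe_subtype hPK ▸ this
  infer_instance

theorem sylow_normal_of_subgroups_all_orders {G : Type*} [Group G] [Finite G]
    (h : ∀ H : Subgroup G, HasSubgroupOfEveryOrder H) {p : ℕ} [Fact p.Prime]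
    (hmax : ∀ q : ℕ, q.Prime → q ∣ Nat.card G → q ≤ p) (P : Sylow p G) : (P : Subgroup G).Normal :=
  sylow_normal_of_orders_aux _ G rfl h p hmax P

theorem ss_of_orders_aux (k : ℕ) : ∀ (G : Type u) [Group G] [Finite G], Nat.card G = k →
    (∀ H : Subgroup G, HasSubgroupOfEveryOrder H) → IsSupersolvable G := by
  induction k using Nat.strongRecOn with | ind k ih => ?_
  intro G _ _ hk h
  rcases subsingleton_or_nontrivial G with hs | hs
  · exact ss_of_subsingleton
  refine ss_of_index_prime fun M hM => ?_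
  have hall : HasSubgroupOfEveryOrder G := hasOrders_of_equiv topEquiv (h ⊤)
  obtain ⟨p, hpmem, hpmax⟩ := (Nat.card G).primeFactors.exists_max_image id
    (Nat.nonempty_primeFactors.mpr Finite.one_lt_card)
  obtain ⟨hp, hpd, -⟩ := Nat.mem_primeFactors.mp hpmem
  have : Fact p.Prime := ⟨hp⟩
  have S : Sylow p G := Classical.arbitrary _
  have hPn : (S : Subgroup G).Normal := sylow_normal_of_subgroups_all_orders (p := p) h
    (fun r hr hrd => hpmax r (Nat.mem_primeFactors.mpr ⟨hr, hrd, Nat.card_pos.ne'⟩)) S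
  let P : Subgroup G := (S : Subgroup G)
  let π := QuotientGroup.mk' P
  have hπ : Function.Surjective π := QuotientGroup.mk'_surjective P
  by_cases hPM : P ≤ M
  · -- pass to the quotient, which is isomorphic to a complement
    obtain ⟨H, hH⟩ := exists_right_complement'_of_coprime (N := P) S.card_coprime_index
    have hHne : H ≠ ⊤ := fun e => S.ne_bot_of_dvd_card hpd (by simpa [e] using hH.disjoint)
    have hHss := ih _ (hk ▸ card_lt_of_ne_top' hHne) H rfl (hasOrders_subgroup h H)
    have hq : IsSupersolvable (G ⧸ P) := by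
      refine ss_of_surjective (π.comp H.subtype) (fun x => ?_) hHss
      obtain ⟨g, rfl⟩ := hπ x
      obtain ⟨a, ha, b, hb, rfl⟩ := mem_sup_of_normal_left.mp (hH.sup_eq_top ▸ mem_top g : g ∈ P ⊔ H)
      refine ⟨⟨b, hb⟩, ?_⟩
      show π b = π (a * b)
      rw [map_mul, show π a = 1 from (QuotientGroup.eq_one_iff a).mpr ha, one_mul]
    have hc : (M.map π).comap π = M := by
      rw [comap_map_eq, QuotientGroup.ker_mk', sup_eq_left.mpr hPM]
    have hco : IsCoatom (M.map π) := by
      refine ⟨fun e => hM.1 (by rw [← hc, e, comap_top]), fun L hL => ?_⟩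
      have := hM.2 (L.comap π) (hc ▸ (comap_lt_comap_of_surjective hπ).mpr hL)
      rw [← map_comap_eq_self_of_surjective hπ L, this, map_top_of_surjective _ hπ]
    rw [← hc, index_comap_of_surjective _ hπ]
    exact index_prime hq hco
  have hsup : M ⊔ P = ⊤ := hM.2 _ (left_lt_sup.mpr hPM)
  -- `R = M ⊓ P` is normal
  let R : Subgroup G := M ⊓ P
  have hRn : R.Normal := by
    rw [← normalizer_eq_top_iff]
    have hMR : M ≤ normalizer (R : Set G) := fun m hm => mem_normalizer_iff.mpr fun x =>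
      ⟨fun hx => ⟨M.mul_mem (M.mul_mem hm hx.1) (M.inv_mem hm), hPn.conj_mem x hx.2 m⟩, fun hx =>
        ⟨by have := M.mul_mem (M.mul_mem (M.inv_mem hm) hx.1) hm; simpa [mul_assoc] using this,
         by have := hPn.conj_mem _ hx.2 m⁻¹; simpa [mul_assoc] using this⟩⟩
    refine hM.2 _ (lt_of_le_of_ne hMR fun e => ?_)
    have hlt : R.subgroupOf P < ⊤ := lt_top_iff_ne_top.mpr fun e' =>
      hPM (fun x hx => ((subgroupOf_eq_top.mp e') hx).1)
    have : Group.IsNilpotent P := S.2.isNilpotent
    have h2 := normalizerCondition_of_isNilpotent (G := P) _ hlt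
    rw [← subgroupOf_normalizer_eq inf_le_right, ← e] at h2
    obtain ⟨y, hy1, hy2⟩ := SetLike.exists_of_lt h2
    exact hy2 ⟨hy1, y.2⟩
  obtain ⟨L, hL⟩ := hall (Nat.card G / p) (Nat.div_dvd_of_dvd hpd)
  have hLi : L.index = p := by
    refine Nat.eq_of_mul_eq_mul_left (Nat.card_pos (α := L)) ?_
    rw [card_mul_index, hL, Nat.div_mul_cancel hpd]
  have hLco : IsCoatom L := by
    refine ⟨fun e => hp.ne_one (hLi ▸ index_eq_one.mpr e), fun K hK => index_eq_one.mp ?_⟩
    rcases (Nat.dvd_prime hp).mp (hLi ▸ index_dvd_of_le hK.le) with e | e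
    · exact e
    · exfalso
      refine hK.ne (eq_of_le_of_card_ge hK.le (le_of_eq ?_))
      refine Nat.eq_of_mul_eq_mul_right hp.pos ?_
      conv_lhs => rw [← e, card_mul_index]
      rw [← hLi, card_mul_index]
  have hPL : ¬ P ≤ L := by
    intro hle
    have h1 : L.index ∣ P.index := index_dvd_of_le hle
    rw [hLi] at h1
    exact S.not_dvd_index h1
  have hLP : L ⊔ P = ⊤ := hLco.2 _ (left_lt_sup.mpr hPL)
  by_cases hRL : R ≤ L
  · let T : Subgroup G := L ⊓ P
    have hTc : Nat.card T * p = Nat.card P := by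
      have h1 := card_sup_mul_card_inf P L
      rw [hLP, Subgroup.card_top] at h1
      have h2 : Nat.card G = Nat.card L * p := hLi ▸ (L.card_mul_index).symm
      rw [h2] at h1
      refine Nat.eq_of_mul_eq_mul_left (Nat.card_pos (α := L)) ?_
      rw [← h1]; ring
    have hTi : (T.subgroupOf P).index = p := by
      refine Nat.eq_of_mul_eq_mul_left (Nat.card_pos (α := T.subgroupOf P)) ?_
      rw [card_mul_index, Nat.card_congr (subgroupOfEquivOfLe (inf_le_right : T ≤ P)).toEquiv, hTc]
    have hTnP : (T.subgroupOf P).Normal := by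
      refine normal_of_index_eq_minFac_card ?_
      obtain ⟨i, hi⟩ := IsPGroup.iff_card.mp S.2
      have hi0 : i ≠ 0 := by
        rintro rfl
        exact S.ne_bot_of_dvd_card hpd (eq_bot_of_card_eq _ (by simpa using hi))
      rw [hTi, show Nat.card P = p ^ i from hi, Nat.Prime.pow_minFac hp hi0]
    have hTn : T.Normal := by
      rw [← normalizer_eq_top_iff, ← top_le_iff, ← hLP]
      refine sup_le (fun l hl => mem_normalizer_iff.mpr fun x =>
        ⟨fun hx => ⟨L.mul_mem (L.mul_mem hl hx.1) (L.inv_mem hl), hPn.conj_mem x hx.2 l⟩, fun hx =>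
          ⟨by have := L.mul_mem (L.mul_mem (L.inv_mem hl) hx.1) hl; simpa [mul_assoc] using this,
           by have := hPn.conj_mem _ hx.2 l⁻¹; simpa [mul_assoc] using this⟩⟩) ?_
      exact (normal_subgroupOf_iff_le_normalizer inf_le_right).mp hTnP
    have hTM : T ≤ M := by
      by_contra hne
      have h1 : M ⊔ T = ⊤ := hM.2 _ (left_lt_sup.mpr hne)
      have h2 : M ⊓ T = R := le_antisymm (fun x hx => ⟨hx.1, hx.2.2⟩)
        fun x hx => ⟨hx.1, hRL hx, hx.2⟩
      have h3 := card_sup_mul_card_inf T M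
      have h4 := card_sup_mul_card_inf P M
      rw [h1, h2] at h3
      rw [hsup] at h4
      have h5 : Nat.card T = Nat.card P := Nat.eq_of_mul_eq_mul_left Nat.card_pos (h3.symm.trans h4)
      have : T = P := eq_of_le_of_card_ge inf_le_right h5.ge
      exact hPL (this ▸ inf_le_left)
    have hRT : R = T := le_antisymm (fun x hx => ⟨hRL hx, hx.2⟩) fun x hx => ⟨hTM hx, hx.2⟩
    have h4 := card_sup_mul_card_inf P M
    rw [hsup, Subgroup.card_top, ← M.card_mul_index, show M ⊓ P = T from hRT, ← hTc] at h4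
    have : M.index * Nat.card T = p * Nat.card T := by
      refine Nat.eq_of_mul_eq_mul_left (Nat.card_pos (α := M)) ?_
      rw [← mul_assoc, h4]; ring
    rw [Nat.eq_of_mul_eq_mul_right Nat.card_pos this]
    exact hp
  · have hLR : L ⊔ R = ⊤ := hLco.2 _ (left_lt_sup.mpr hRL)
    let φ := (QuotientGroup.mk' R).comp L.subtype
    have hφ : Function.Surjective φ := fun x => by
      obtain ⟨g, rfl⟩ := QuotientGroup.mk'_surjective R x
      obtain ⟨a, ha, b, hb, rfl⟩ := mem_sup_of_normal_right.mp (hLR ▸ mem_top g : g ∈ L ⊔ R)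
      refine ⟨⟨a, ha⟩, ?_⟩
      show QuotientGroup.mk' R a = QuotientGroup.mk' R (a * b)
      rw [map_mul, show QuotientGroup.mk' R b = 1 from (QuotientGroup.eq_one_iff b).mpr hb, mul_one]
    have hc : (M.map (QuotientGroup.mk' R)).comap (QuotientGroup.mk' R) = M := by
      rw [comap_map_eq, QuotientGroup.ker_mk', sup_eq_left.mpr inf_le_left]
    have hco : IsCoatom (M.map (QuotientGroup.mk' R)) := by
      refine ⟨fun e => hM.1 (by rw [← hc, e, comap_top]), fun K hK => ?_⟩
      have := hM.2 (K.comap (QuotientGroup.mk' R))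
        (hc ▸ (comap_lt_comap_of_surjective (QuotientGroup.mk'_surjective R)).mpr hK)
      rw [← map_comap_eq_self_of_surjective (QuotientGroup.mk'_surjective R) K, this,
        map_top_of_surjective _ (QuotientGroup.mk'_surjective R)]
    have hLss := ih _ (hk ▸ card_lt_of_ne_top' hLco.1) L rfl (hasOrders_subgroup h L)
    rw [← hc, index_comap_of_surjective _ (QuotientGroup.mk'_surjective R),
      ← index_comap_of_surjective _ hφ]
    exact index_prime hLss (isCoatom_comap_of_surjective hφ hco)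

theorem ss_of_subgroups_all_orders {G : Type*} [Group G] [Finite G]
    (h : ∀ H : Subgroup G, HasSubgroupOfEveryOrder H) : IsSupersolvable G :=
  ss_of_orders_aux _ G rfl h

theorem ss_of_cyclic_product_aux (k : ℕ) : ∀ (G : Type u) [Group G] [Finite G], Nat.card G = k →
    ∀ (A B : Subgroup G), IsCyclic A → IsCyclic B → (∀ g : G, ∃ a ∈ A, ∃ b ∈ B, g = a * b) →
    IsSupersolvable G := by
  induction k using Nat.strongRecOn with | ind k ih => ?_
  intro G _ _ hk A B hA hB hAB
  wlog hle : Nat.card B ≤ Nat.card A generalizing A B with H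
  · refine H B A hB hA (fun g => ?_) (le_of_not_ge hle)
    obtain ⟨a, ha, b, hb, e⟩ := hAB g⁻¹
    exact ⟨b⁻¹, B.inv_mem hb, a⁻¹, A.inv_mem ha, by rw [← mul_inv_rev, ← e, inv_inv]⟩
  rcases subsingleton_or_nontrivial G with hs | hs
  · exact ss_of_subsingleton
  -- a nontrivial normal subgroup inside `A`
  obtain ⟨C, hCn, hCA, hCne⟩ : ∃ C : Subgroup G, C.Normal ∧ C ≤ A ∧ C ≠ ⊥ := by
    by_cases hAtop : A = ⊤
    · exact ⟨⊤, inferInstance, hAtop.ge, top_ne_bot⟩
    obtain ⟨b₀, hb₀⟩ := B.isCyclic_iff_exists_zpowers_eq_top.mp hB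
    let A' : Subgroup G := MulAut.conj b₀ • A
    have hcard' : Nat.card A' = Nat.card A := card_conj_smul _ _
    have hne : (A : Set G) * (A' : Set G) ≠ Set.univ := by
      intro e
      have hb : b₀ ∈ A := by
        obtain ⟨a, ha, a', ha', hx⟩ := Set.mem_mul.mp (e ▸ Set.mem_univ b₀⁻¹ : b₀⁻¹ ∈ (A : Set G) * (A' : Set G))
        have h2 : b₀⁻¹ * a' * b₀ ∈ A := (mem_conj_smul).mp ha'
        have h3 : a * b₀ * (b₀⁻¹ * a' * b₀) = 1 := by
          calc a * b₀ * (b₀⁻¹ * a' * b₀) = (a * a') * b₀ := by group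
            _ = 1 := by rw [hx, inv_mul_cancel]
        have : b₀ = a⁻¹ * (b₀⁻¹ * a' * b₀)⁻¹ := by
          calc b₀ = a⁻¹ * (a * b₀ * (b₀⁻¹ * a' * b₀)) * (b₀⁻¹ * a' * b₀)⁻¹ := by group
            _ = _ := by rw [h3, mul_one]
        rw [this]
        exact A.mul_mem (A.inv_mem ha) (A.inv_mem h2)
      refine hAtop (eq_top_iff.mpr fun g _ => ?_)
      obtain ⟨a, ha, b, hb', rfl⟩ := hAB g
      exact A.mul_mem ha ((hb₀ ▸ zpowers_le.mpr hb) hb')
    have hlt : Nat.card ((A : Set G) * (A' : Set G) : Set G) < Nat.card G := by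
      rw [Nat.card_coe_set_eq, ← Set.ncard_univ G]
      exact Set.ncard_lt_ncard (Set.ssubset_univ_iff.mpr hne) (Set.toFinite _)
    have hAB' : Nat.card G * Nat.card (A ⊓ B : Subgroup G) = Nat.card A * Nat.card B := by
      rw [← card_coe_mul_mul_card_inf]
      have : ((A : Set G) * (B : Set G)) = Set.univ := Set.eq_univ_of_forall fun g => by
        obtain ⟨a, ha, b, hb', rfl⟩ := hAB g
        exact Set.mul_mem_mul ha hb'
      rw [this, Nat.card_coe_set_eq, Set.ncard_univ]
    have h2 : Nat.card ((A : Set G) * (A' : Set G) : Set G) * Nat.card (A ⊓ A' : Subgroup G) =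
        Nat.card A * Nat.card A := by rw [card_coe_mul_mul_card_inf, hcard']
    have hD : A ⊓ A' ≠ ⊥ := by
      intro e
      rw [e, Subgroup.card_bot, mul_one] at h2
      have h3 : 0 < Nat.card (A ⊓ B : Subgroup G) := Nat.card_pos
      have h4 : Nat.card G ≤ Nat.card A * Nat.card B := hAB' ▸ Nat.le_mul_of_pos_right _ h3
      have h5 := Nat.mul_le_mul_left (Nat.card A) hle
      omega
    let D : Subgroup G := A ⊓ A'
    let D' : Subgroup G := MulAut.conj b₀⁻¹ • D
    have hD'A : D' ≤ A := by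
      intro x hx
      rw [mem_conj_smul] at hx
      have h' : (b₀⁻¹)⁻¹ * x * b₀⁻¹ ∈ A' := hx.2
      rw [mem_conj_smul] at h'
      simpa [mul_assoc] using h'
    have hDD : D' = D := by
      have hdc : Nat.card D' = Nat.card D := card_conj_smul _ _
      have hle' : D' ≤ D ⊔ D' := le_sup_right
      have hSA : D ⊔ D' ≤ A := sup_le inf_le_left hD'A
      have hcomm : ∀ {x y : G}, x ∈ A → y ∈ A → x * y = y * x := fun hx hy =>
        congrArg Subtype.val (mul_comm' (⟨_, hx⟩ : A) ⟨_, hy⟩)
      let E : Subgroup G :=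
        { carrier := {x | x ∈ A ∧ x ^ Nat.card D = 1}
          one_mem' := ⟨one_mem A, one_pow _⟩
          mul_mem' := fun {x y} hx hy => ⟨mul_mem hx.1 hy.1, by
            rw [Commute.mul_pow (hcomm hx.1 hy.1), hx.2, hy.2, one_mul]⟩
          inv_mem' := fun {x} hx => ⟨inv_mem hx.1, by rw [inv_pow, hx.2, inv_one]⟩ }
      have hSE : D ⊔ D' ≤ E := sup_le
        (fun x hx => ⟨hx.1, congrArg Subtype.val (pow_card_eq_one' (x := (⟨x, hx⟩ : D)))⟩)
        (fun x hx => ⟨hD'A hx, hdc ▸ congrArg Subtype.val (pow_card_eq_one' (x := (⟨x, hx⟩ : D')))⟩)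
      have := isCyclic_of_le hSA
      obtain ⟨s, hs'⟩ := (D ⊔ D').isCyclic_iff_exists_zpowers_eq_top.mp this
      have hcard : Nat.card ↥(D ⊔ D') ≤ Nat.card D := by
        rw [← hs', Nat.card_zpowers]
        exact Nat.le_of_dvd Nat.card_pos (orderOf_dvd_of_pow_eq_one (hSE (hs' ▸ mem_zpowers s)).2)
      have e1 : D = D ⊔ D' := eq_of_le_of_card_ge le_sup_left hcard
      exact (eq_of_le_of_card_ge hle' (hdc ▸ hcard)).trans e1.symm
    refine ⟨D, ?_, inf_le_left, hD⟩
    rw [← normalizer_eq_top_iff, ← top_le_iff]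
    intro g _
    obtain ⟨a, ha, b, hb', rfl⟩ := hAB g
    refine mul_mem ?_ ?_
    · exact mem_normalizer_iff.mpr fun x => by
        constructor
        · intro hx
          rw [show a * x * a⁻¹ = x from by
            rw [show a * x = x * a from congrArg Subtype.val (mul_comm' (⟨a, ha⟩ : A) ⟨x, hx.1⟩), mul_inv_cancel_right]]
          exact hx
        · intro hx
          have hxA : x ∈ A := by
            have := A.mul_mem (A.mul_mem (A.inv_mem ha) hx.1) ha; simpa [mul_assoc] using this
          rw [show a * x * a⁻¹ = x from by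
            rw [show a * x = x * a from congrArg Subtype.val (mul_comm' (⟨a, ha⟩ : A) ⟨x, hxA⟩), mul_inv_cancel_right]] at hx
          exact hx
    · have hmem : b₀⁻¹ ∈ normalizer (D : Set G) := mem_normalizer_of_conj_smul_eq hDD
      have hb0 : b₀ ∈ normalizer (D : Set G) := inv_mem_iff.mp hmem
      exact zpowers_le.mpr hb0 (hb₀ ▸ hb')
  have : IsCyclic C := isCyclic_of_le hCA
  refine ss_of_cyclic_normal C ?_
  let π := QuotientGroup.mk' C
  have hA' : IsCyclic (A.map π) := isCyclic_of_surjective (π.subgroupMap A) (π.subgroupMap_surjective A)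
  have hB' : IsCyclic (B.map π) := isCyclic_of_surjective (π.subgroupMap B) (π.subgroupMap_surjective B)
  refine ih _ (hk ▸ card_quotient_lt hCne) (G ⧸ C) rfl (A.map π) (B.map π) hA' hB' fun x => ?_
  obtain ⟨g, rfl⟩ := QuotientGroup.mk'_surjective C x
  obtain ⟨a, ha, b, hb, rfl⟩ := hAB g
  exact ⟨π a, mem_map_of_mem π ha, π b, mem_map_of_mem π hb, map_mul π a b⟩

theorem ss_of_cyclic_product {G : Type*} [Group G] [Finite G] (A B : Subgroup G) [IsCyclic A]
    [IsCyclic B] (hAB : ∀ g : G, ∃ a ∈ A, ∃ b ∈ B, g = a * b) : IsSupersolvable G :=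
  ss_of_cyclic_product_aux _ G rfl A B inferInstance inferInstance hAB

theorem exists_conj_of_ss_hall_aux (k : ℕ) : ∀ (G : Type u) [Group G] [Finite G], Nat.card G = k →
    ∀ (H K : Subgroup G), IsSupersolvable H → IsSupersolvable K → Nat.card H = Nat.card K →
    (Nat.card H).Coprime H.index → ∃ x : G, MulAut.conj x • H = K := by
  induction k using Nat.strongRecOn with | ind k ih => ?_
  intro G _ _ hk H K hH hK hcard hhall
  by_cases hH1 : H = ⊥
  · subst hH1
    rw [Subgroup.card_bot] at hcard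
    rw [eq_bot_of_card_eq K hcard.symm]
    exact ⟨1, by rw [map_one, one_smul]⟩
  have hnt : Nontrivial H := (nontrivial_iff_ne_bot H).mpr hH1
  obtain ⟨p, hpmem, hpmax⟩ := (Nat.card H).primeFactors.exists_max_image id
    (Nat.nonempty_primeFactors.mpr Finite.one_lt_card)
  obtain ⟨hp, hpd, -⟩ := Nat.mem_primeFactors.mp hpmem
  have : Fact p.Prime := ⟨hp⟩
  have hmax : ∀ r : ℕ, r.Prime → r ∣ Nat.card H → r ≤ p := fun r hr hrd =>
    hpmax r (Nat.mem_primeFactors.mpr ⟨hr, hrd, Nat.card_pos.ne'⟩)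
  have key : ∀ L : Subgroup G, IsSupersolvable L → Nat.card L = Nat.card H →
      ∃ P : Sylow p G, L ≤ normalizer ((P : Subgroup G) : Set G) ∧ (P : Subgroup G) ≤ L := by
    intro L hL hLc
    have S : Sylow p L := Classical.arbitrary _
    have hn : (S : Subgroup L).Normal := sylow_normal_of_subgroups_all_orders
      (fun D => hasSubgroupOfEveryOrder (ss_subgroup hL D)) (hLc.symm ▸ hmax) S
    let P₀ : Subgroup G := (S : Subgroup L).map L.subtype
    have hP₀c : Nat.card P₀ = p ^ (Nat.card G).factorization p := by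
      rw [card_map_of_injective L.subtype_injective, S.card_eq_multiplicity]
      congr 1
      have hi : ¬ p ∣ L.index := by
        have : L.index = H.index := by
          refine Nat.eq_of_mul_eq_mul_left (Nat.card_pos (α := L)) ?_
          rw [card_mul_index, hLc, card_mul_index]
        rw [this]
        exact fun e => hp.ne_one (Nat.eq_one_of_dvd_coprimes hhall hpd e)
      conv_rhs => rw [← L.card_mul_index, Nat.factorization_mul Nat.card_pos.ne' index_ne_zero_of_finite,
        Finsupp.add_apply, Nat.factorization_eq_zero_of_not_dvd hi, add_zero]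
    refine ⟨Sylow.ofCard P₀ hP₀c, ?_, map_subtype_le _⟩
    show L ≤ normalizer (P₀ : Set G)
    exact (normal_subgroupOf_iff_le_normalizer (map_subtype_le _)).mp
      (by rw [show P₀.subgroupOf L = (S : Subgroup L) from comap_map_eq_self_of_injective L.subtype_injective _]; exact hn)
  obtain ⟨P, hPN, hPH⟩ := key H hH rfl
  obtain ⟨Q, hQN, hQK⟩ := key K hK hcard.symm
  obtain ⟨g, hg⟩ := MulAction.exists_smul_eq G P Q
  let H' : Subgroup G := MulAut.conj g • H
  have hgQ : MulAut.conj g • (P : Subgroup G) = (Q : Subgroup G) := by rw [← hg]; rfl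
  have hH'N : H' ≤ normalizer ((Q : Subgroup G) : Set G) := by
    intro x hx
    refine mem_normalizer_of_conj_smul_eq ?_
    rw [mem_conj_smul] at hx
    have h1 : MulAut.conj (g⁻¹ * x * g) • (P : Subgroup G) = (P : Subgroup G) :=
      conj_smul_eq_self (hPN hx)
    rw [← hgQ]
    calc MulAut.conj x • MulAut.conj g • (P : Subgroup G)
        = MulAut.conj g • MulAut.conj (g⁻¹ * x * g) • (P : Subgroup G) := by
          rw [← mul_smul, ← mul_smul, ← map_mul, ← map_mul]; congr 2; group
      _ = MulAut.conj g • (P : Subgroup G) := by rw [h1]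
  let N := normalizer ((Q : Subgroup G) : Set G)
  let Q₀ := (Q : Subgroup G).subgroupOf N
  have : Q₀.Normal := normal_in_normalizer
  let π := QuotientGroup.mk' Q₀
  have hQne : Q₀ ≠ ⊥ := fun e => by
    have h1 : Nat.card (Q : Subgroup G) = 1 := by
      rw [← Nat.card_congr (subgroupOfEquivOfLe (le_normalizer : (Q : Subgroup G) ≤ N)).toEquiv]
      rw [show (Q : Subgroup G).subgroupOf N = ⊥ from e, Subgroup.card_bot]
    exact Q.ne_bot_of_dvd_card (hpd.trans (card_subgroup_dvd_card H)) (eq_bot_of_card_eq _ h1)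
  have hQH' : (Q : Subgroup G) ≤ H' := hgQ ▸ pointwise_smul_le_pointwise_smul_iff.mpr hPH
  have hss' : ∀ L : Subgroup G, IsSupersolvable L → L ≤ N → IsSupersolvable ((L.subgroupOf N).map π) :=
    fun L hL hLN => ss_of_surjective (π.subgroupMap (L.subgroupOf N)) (π.subgroupMap_surjective _)
      (ss_of_surjective (subgroupOfEquivOfLe hLN).symm.toMonoidHom (subgroupOfEquivOfLe hLN).symm.surjective hL)
  have hH'ss : IsSupersolvable H' :=
    ss_of_surjective (equivSMul (MulAut.conj g) H).toMonoidHom (equivSMul (MulAut.conj g) H).surjective hH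
  have hcmap : ∀ L : Subgroup N, Q₀ ≤ L → Nat.card (L.map π) * Nat.card Q₀ = Nat.card L := fun L hL => by
    have := card_map_mk' Q₀ L
    rwa [inf_eq_right.mpr hL] at this
  have hH'c : Nat.card (H'.subgroupOf N) = Nat.card H := by
    rw [Nat.card_congr (subgroupOfEquivOfLe hH'N).toEquiv, card_conj_smul]
  have hle1 : Q₀ ≤ H'.subgroupOf N := fun x hx => hQH' hx
  have hle2 : Q₀ ≤ K.subgroupOf N := fun x hx => hQK hx
  obtain ⟨x, hx⟩ := ih _ (hk ▸ lt_of_lt_of_le (card_quotient_lt hQne) (Nat.le_of_dvd Nat.card_pos (card_subgroup_dvd_card N)))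
    (N ⧸ Q₀) rfl _ _ (hss' H' hH'ss hH'N) (hss' K hK hQN) (by
      refine Nat.eq_of_mul_eq_mul_right (Nat.card_pos (α := Q₀)) ?_
      rw [hcmap _ hle1, hcmap _ hle2, hH'c, Nat.card_congr (subgroupOfEquivOfLe hQN).toEquiv, hcard]) (by
      rw [index_map_eq _ (QuotientGroup.mk'_surjective Q₀) (by rw [QuotientGroup.ker_mk']; exact hle1)]
      refine (hhall.coprime_dvd_left (hH'c ▸ ⟨_, (hcmap _ hle1).symm⟩)).coprime_dvd_right ?_
      have h1 : (H'.subgroupOf N).index ∣ H'.index := by
        rw [← relIndex_mul_index hH'N]; exact dvd_mul_right _ _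
      have h2 : H'.index = H.index := by
        refine Nat.eq_of_mul_eq_mul_left (Nat.card_pos (α := H')) ?_
        rw [card_mul_index, card_conj_smul, card_mul_index]
      exact h2 ▸ h1)
  obtain ⟨n, rfl⟩ := QuotientGroup.mk'_surjective Q₀ x
  rw [← map_conj_smul] at hx
  have hQn : Q₀ ≤ MulAut.conj n • H'.subgroupOf N := by
    rw [← conj_smul_of_normal (N := Q₀) n]; exact pointwise_smul_le_pointwise_smul_iff.mpr hle1
  have hfin : MulAut.conj n • H'.subgroupOf N = K.subgroupOf N := by
    have := congrArg (Subgroup.comap π) hx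
    rwa [comap_map_eq, comap_map_eq, QuotientGroup.ker_mk', sup_eq_left.mpr hQn,
      sup_eq_left.mpr hle2] at this
  refine ⟨(n : G) * g, eq_of_le_of_card_ge (fun y hy => ?_) (by rw [card_conj_smul, hcard])⟩
  rw [map_mul, mul_smul, mem_conj_smul] at hy
  have hy' : (n : G)⁻¹ * y * n ∈ N := hH'N hy
  have hyN : y ∈ N := by
    have := N.mul_mem (N.mul_mem n.2 hy') (N.inv_mem n.2); simpa [mul_assoc] using this
  have : (⟨y, hyN⟩ : N) ∈ MulAut.conj n • H'.subgroupOf N := mem_conj_smul.mpr hy
  rw [hfin] at this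
  exact this

/-- Supersolvable Hall subgroups of equal order are conjugate. -/
theorem exists_conj_of_ss_hall {G : Type*} [Group G] [Finite G] (H K : Subgroup G)
    (hH : IsSupersolvable H) (hK : IsSupersolvable K) (hcard : Nat.card H = Nat.card K)
    (hhall : (Nat.card H).Coprime H.index) : ∃ x : G, MulAut.conj x • H = K :=
  exists_conj_of_ss_hall_aux _ G rfl H K hH hK hcard hhall

end Cfsg.Agent.Lib.Hall
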