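import Cfsg.Agent.Lib.Metacyclic.Basic
import Cfsg.Agent.Lib.Thompson.PGroup

/-! Coprime operators on odd metacyclic `p`-groups: if `T = [T, A]` then `T` is abelian. -/

set_option autoImplicit false

namespace Cfsg.Agent.Lib.Hall.MetacyclicAct

open Subgroup
open scoped commutatorElement

variable {T : Type*} [Group T] [Finite T] {p : ℕ} [hp : Fact p.Prime] {A : Type*} [Group A] [Finite A]

omit [Finite T] hp in
theorem exists_rep {F : Subgroup T} [F.Normal] (hcom : commutator T ≤ F) {x y : T}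
    (h : closure ({x, y} : Set T) ⊔ F = ⊤) (t : T) :
    ∃ (i l : ℤ) (z : T), z ∈ F ∧ t = x ^ i * y ^ l * z := by
  have htop : (closure ({x, y} : Set T)).map (QuotientGroup.mk' F) = ⊤ := by
    have := congrArg (Subgroup.map (QuotientGroup.mk' F)) h
    rwa [Subgroup.map_sup, QuotientGroup.map_mk'_self, sup_bot_eq,
      map_top_of_surjective _ (QuotientGroup.mk'_surjective F)] at this
  rw [MonoidHom.map_closure, Set.image_pair] at htop
  have hmem : QuotientGroup.mk' F t ∈ closure ({QuotientGroup.mk' F x, QuotientGroup.mk' F y} : Set (T ⧸ F)) :=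
    htop.ge (mem_top _)
  have hc : ∀ a b : T ⧸ F, a * b = b * a := by
    intro a b
    obtain ⟨a, rfl⟩ := QuotientGroup.mk_surjective a
    obtain ⟨b, rfl⟩ := QuotientGroup.mk_surjective b
    rw [← QuotientGroup.mk_mul, ← QuotientGroup.mk_mul, QuotientGroup.eq]
    apply hcom
    have : (a * b)⁻¹ * (b * a) = ⁅b⁻¹, a⁻¹⁆ := by rw [commutatorElement_def]; group
    rw [this]
    exact commutator_mem_commutator (mem_top _) (mem_top _)
  let _ : CommGroup (T ⧸ F) := { (inferInstance : Group (T ⧸ F)) with mul_comm := hc }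
  obtain ⟨i, l, hil⟩ := Subgroup.mem_closure_pair.mp hmem
  refine ⟨i, l, (x ^ i * y ^ l)⁻¹ * t, ?_, by group⟩
  rw [← QuotientGroup.eq_one_iff, QuotientGroup.mk_mul, QuotientGroup.mk_inv, QuotientGroup.mk_mul,
    QuotientGroup.mk_zpow, QuotientGroup.mk_zpow]
  exact inv_mul_eq_one.mpr hil

/-- No fixed coset modulo a subgroup containing `T'`, for coprime operators with `[T, A] = T`. -/
theorem mem_of_fixed (φ : A →* MulAut T) (hT : IsPGroup p T) (hcop : (Nat.card A).Coprime p)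
    {F : Subgroup T} [F.Normal] (hcom : commutator T ≤ F)
    (hinv : ∀ a, ∀ z ∈ F, φ a z ∈ F)
    (hgen : ∀ W : Subgroup T, (∀ a t, φ a t * t⁻¹ ∈ W) → W = ⊤)
    {y : T} (hy : ∀ a, φ a y * y⁻¹ ∈ F) : y ∈ F := by
  have := Fintype.ofFinite A
  have hc : ∀ a b : T ⧸ F, a * b = b * a := by
    intro a b
    obtain ⟨a, rfl⟩ := QuotientGroup.mk_surjective a
    obtain ⟨b, rfl⟩ := QuotientGroup.mk_surjective b
    rw [← QuotientGroup.mk_mul, ← QuotientGroup.mk_mul, QuotientGroup.eq]
    apply hcom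
    have : (a * b)⁻¹ * (b * a) = ⁅b⁻¹, a⁻¹⁆ := by rw [commutatorElement_def]; group
    rw [this]
    exact commutator_mem_commutator (mem_top _) (mem_top _)
  let _ : CommGroup (T ⧸ F) := { (inferInstance : Group (T ⧸ F)) with mul_comm := hc }
  let τ : T →* T ⧸ F :=
    { toFun := fun t => ∏ a : A, (φ a t : T ⧸ F)
      map_one' := by simp
      map_mul' := fun s t => by simp [Finset.prod_mul_distrib] }
  have hker : τ.ker = ⊤ := hgen _ fun b t => by
    rw [MonoidHom.mem_ker, map_mul, map_inv, mul_inv_eq_one]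
    change ∏ a : A, (φ a (φ b t) : T ⧸ F) = ∏ a : A, (φ a t : T ⧸ F)
    exact Fintype.prod_equiv (Equiv.mulRight b) _ _ fun a => by simp
  have h1 : τ y = (y : T ⧸ F) ^ Nat.card A := by
    change ∏ a : A, (φ a y : T ⧸ F) = _
    rw [Finset.prod_congr rfl (g := fun _ => (y : T ⧸ F)) fun a _ => ?_, Finset.prod_const,
      Finset.card_univ, Nat.card_eq_fintype_card]
    rw [← mul_inv_eq_one, ← QuotientGroup.mk_inv, ← QuotientGroup.mk_mul, QuotientGroup.eq_one_iff]
    exact hy a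
  rw [show τ y = 1 from MonoidHom.mem_ker.mp (hker.ge (mem_top y))] at h1
  obtain ⟨e, he⟩ := IsPGroup.iff_card.mp (hT.to_quotient F)
  have hco : (Nat.card (T ⧸ F)).Coprime (Nat.card A) := by
    rw [he]; exact (hcop.pow_right e).symm
  rw [← QuotientGroup.eq_one_iff]
  exact (powCoprime hco).injective (by simpa [powCoprime_apply] using h1.symm)

/-- The heart: `T'` of order `p`, central and consisting of `p`-th powers. -/
theorem false_of_prime (φ : A →* MulAut T) (hT : IsPGroup p T) (hp2 : p ≠ 2)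
    (hcop : (Nat.card A).Coprime p) {c : T} (hc1 : c ≠ 1) (hcp : c ^ p = 1) (hcc : c ∈ center T)
    (hcom : commutator T = zpowers c) (hpow : ∃ v, v ^ p = c) {a b : T}
    (hab : closure ({a, b} : Set T) = ⊤)
    (hgen : ∀ W : Subgroup T, (∀ a t, φ a t * t⁻¹ ∈ W) → W = ⊤) : False := by
  have hordc : orderOf c = p := orderOf_eq_prime hcp hc1
  have hzc : ∀ (i : ℤ) (x : T), Commute (c ^ i) x := fun i x =>
    ((mem_center_iff.mp (zpow_mem hcc i)) x).symm
  have hcz : ∀ x y : T, ∃ i : ℤ, c ^ i = ⁅x, y⁆ := fun x y => mem_zpowers_iff.mp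
    (hcom ▸ commutator_mem_commutator (mem_top x) (mem_top y))
  -- the `p`-th power map is a homomorphism
  have hpm : ∀ x y : T, (x * y) ^ p = x ^ p * y ^ p := by
    intro x y
    obtain ⟨i, hi⟩ := hcz y⁻¹ x⁻¹
    have h := Thompson.mul_pow_class_two (Thompson.mul_comm_eq x y) (hi ▸ hzc i x) (hi ▸ hzc i y) p
    rw [h, ← hi, Thompson.pow_choose_two_eq_one hp2 (z := c ^ i) (by
      rw [← zpow_natCast, ← zpow_mul, mul_comm, zpow_mul, zpow_natCast, hcp, one_zpow]), mul_one]
  have hpj : ∀ (j : ℕ) (x y : T), (x * y) ^ p ^ j = x ^ p ^ j * y ^ p ^ j := by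
    intro j
    induction j with
    | zero => simp
    | succ j ih => intro x y; simp only [pow_succ, pow_mul, ih, hpm]
  -- commutators are bilinear
  have hbl : ∀ x y z : T, ⁅x * y, z⁆ = ⁅x, z⁆ * ⁅y, z⁆ := fun x y z => by
    obtain ⟨i, hi⟩ := hcz y z
    calc ⁅x * y, z⁆ = x * ⁅y, z⁆ * x⁻¹ * ⁅x, z⁆ := by simp only [commutatorElement_def]; group
      _ = ⁅y, z⁆ * ⁅x, z⁆ := by rw [← hi, ← (hzc i x).eq, mul_inv_cancel_right]
      _ = _ := by rw [← hi, (hzc i ⁅x, z⁆).eq]
  let L : T → (T →* T) := fun z =>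
    { toFun := fun x => ⁅x, z⁆, map_one' := commutatorElement_one_left z, map_mul' := fun x y => hbl x y z }
  have hL : ∀ x z : T, L z x = ⁅x, z⁆ := fun _ _ => rfl
  -- `Φ = T^p` is central
  let π : T →* T := { toFun := fun x => x ^ p, map_one' := one_pow p, map_mul' := hpm }
  have hπ : ∀ x, π x = x ^ p := fun _ => rfl
  have hFr : frattini T = π.range := by
    apply le_antisymm
    · refine PGroupFrattini.frattini_le hp.out _ ?_ fun x => ⟨x, rfl⟩
      rw [hcom, zpowers_le]; exact hpow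
    · rintro _ ⟨x, rfl⟩; exact PGroupFrattini.pow_mem_frattini hT x
  have hFc : ∀ z ∈ frattini T, ∀ x : T, ⁅z, x⁆ = 1 := by
    intro z hz x
    obtain ⟨w, rfl⟩ := hFr.le hz
    obtain ⟨i, hi⟩ := hcz w x
    rw [hπ, ← hL, map_pow, hL, ← hi, ← zpow_natCast, ← zpow_mul, mul_comm, zpow_mul, zpow_natCast,
      hcp, one_zpow]
  have hcomF : commutator T ≤ frattini T := PGroupFrattini.commutator_le_frattini hT
  have hFinv : ∀ g, ∀ z ∈ frattini T, φ g z ∈ frattini T := fun g z hz => by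
    obtain ⟨w, rfl⟩ := hFr.le hz
    exact hFr.ge ⟨φ g w, by rw [hπ, hπ, map_pow]⟩
  have hyF : ∀ (y : T) (l : ℤ), (p : ℤ) ∣ l → y ^ l ∈ frattini T := by
    rintro y l ⟨m, rfl⟩
    rw [zpow_mul, zpow_natCast]
    exact zpow_mem (PGroupFrattini.pow_mem_frattini hT y) m
  have hcp' : ∀ i : ℤ, c ^ i = 1 → (p : ℤ) ∣ i := fun i hi => by
    rw [← hordc]; exact orderOf_dvd_iff_zpow_eq_one.mpr hi
  -- `u` is a deepest root of `c`
  have hex : ∃ j, ¬ ∃ x : T, x ^ p ^ j = c := by
    obtain ⟨e, he⟩ := IsPGroup.iff_card.mp hT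
    exact ⟨e, fun ⟨x, hx⟩ => hc1 (by rw [← hx, ← he]; exact pow_card_eq_one')⟩
  obtain ⟨j, hj, hjmax⟩ : ∃ j, (∃ x : T, x ^ p ^ j = c) ∧ ¬ ∃ x : T, x ^ p ^ (j + 1) = c := by
    by_contra hcon
    push_neg at hcon
    obtain ⟨e, he⟩ := hex
    apply he
    clear he
    induction e with
    | zero => exact ⟨c, by simp⟩
    | succ e ih => obtain ⟨x, hx⟩ := ih; exact hcon e ⟨x, hx⟩
  obtain ⟨u, hu⟩ := hj
  let ψ : T →* T := { toFun := fun x => x ^ p ^ j, map_one' := one_pow _, map_mul' := hpj j }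
  have hψ : ∀ x, ψ x = x ^ p ^ j := fun _ => rfl
  have hψF : ∀ z ∈ frattini T, ∀ i : ℤ, ψ z = c ^ i → (p : ℤ) ∣ i := by
    intro z hz i hi
    by_contra hni
    obtain ⟨w, rfl⟩ := hFr.le hz
    obtain ⟨s, t, hst⟩ : IsCoprime (p : ℤ) i :=
      (Nat.prime_iff_prime_int.mp hp.out).coprime_iff_not_dvd.mpr hni
    refine hjmax ⟨w ^ t, ?_⟩
    calc (w ^ t) ^ p ^ (j + 1) = (ψ (π w)) ^ t := by
          rw [hψ, hπ, ← pow_mul, ← pow_succ', ← zpow_natCast, ← zpow_natCast w, ← zpow_mul, ← zpow_mul,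
            mul_comm]
      _ = c ^ (s * p + t * i) := by
          rw [hi, ← zpow_mul, zpow_add, show s * (p : ℤ) = (p : ℤ) * s from mul_comm _ _,
            zpow_mul c (p : ℤ) s, zpow_natCast, hcp, one_zpow, one_mul, mul_comm i]
      _ = c := by rw [hst, zpow_one]
  have huF : u ∉ frattini T := fun h => by
    have := Int.natCast_dvd_natCast.mp (hψF u h (1 : ℕ) (by rw [hψ, hu]; simp))
    exact hp.out.ne_one (Nat.dvd_one.mp this)
  obtain ⟨y, hy⟩ : ∃ y, closure ({u, y} : Set T) ⊔ frattini T = ⊤ := by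
    obtain ⟨i, l, z, hz, huil⟩ := exists_rep hcomF (x := a) (y := b) (t := u) (by simp [hab])
    by_cases hi : (p : ℤ) ∣ i
    · have hl : ¬ (p : ℤ) ∣ l := fun hl =>
        huF (huil ▸ mul_mem (mul_mem (hyF a i hi) (hyF b l hl)) hz)
      refine ⟨a, eq_top_iff.mpr (hab ▸ (closure_le _).mpr ?_)⟩
      have hu' : u ∈ closure ({u, a} : Set T) ⊔ frattini T := mem_sup_left (subset_closure (by simp))
      have ha' : a ∈ closure ({u, a} : Set T) ⊔ frattini T := mem_sup_left (subset_closure (by simp))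
      rintro x (rfl | rfl)
      · exact ha'
      obtain ⟨s, t, hst⟩ : IsCoprime (p : ℤ) l :=
        (Nat.prime_iff_prime_int.mp hp.out).coprime_iff_not_dvd.mpr hl
      have hbl' : x ^ l = (a ^ i)⁻¹ * u * z⁻¹ := by rw [huil]; group
      have : x = (x ^ (p : ℤ)) ^ s * (x ^ l) ^ t := by
        rw [← zpow_mul, ← zpow_mul, ← zpow_add, mul_comm (p : ℤ), mul_comm l, hst, zpow_one]
      rw [SetLike.mem_coe, this, hbl']
      exact mul_mem (zpow_mem (mem_sup_right (hyF x p dvd_rfl)) s)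
        (zpow_mem (mul_mem (mul_mem (inv_mem (zpow_mem ha' i)) hu') (inv_mem (mem_sup_right hz))) t)
    · refine ⟨b, eq_top_iff.mpr (hab ▸ (closure_le _).mpr ?_)⟩
      have hu' : u ∈ closure ({u, b} : Set T) ⊔ frattini T := mem_sup_left (subset_closure (by simp))
      have hb' : b ∈ closure ({u, b} : Set T) ⊔ frattini T := mem_sup_left (subset_closure (by simp))
      rintro x (rfl | rfl)
      swap
      · exact hb'
      obtain ⟨s, t, hst⟩ : IsCoprime (p : ℤ) i :=
        (Nat.prime_iff_prime_int.mp hp.out).coprime_iff_not_dvd.mpr hi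
      have hbl' : x ^ i = u * z⁻¹ * (b ^ l)⁻¹ := by rw [huil]; group
      have : x = (x ^ (p : ℤ)) ^ s * (x ^ i) ^ t := by
        rw [← zpow_mul, ← zpow_mul, ← zpow_add, mul_comm (p : ℤ), mul_comm i, hst, zpow_one]
      rw [SetLike.mem_coe, this, hbl']
      exact mul_mem (zpow_mem (mem_sup_right (hyF x p dvd_rfl)) s)
        (zpow_mem (mul_mem (mul_mem hu' (inv_mem (mem_sup_right hz))) (inv_mem (zpow_mem hb' l))) t)
  -- commutators in coordinates
  have hc2 : ∀ y : T, closure ({u, y} : Set T) ⊔ frattini T = ⊤ → ∀ (i l i' l' : ℤ) (z z' : T),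
      z ∈ frattini T → z' ∈ frattini T →
      ⁅u ^ i * y ^ l * z, u ^ i' * y ^ l' * z'⁆ = ⁅u, y⁆ ^ (i * l' - l * i') := by
    intro y _ i l i' l' z z' hz hz'
    have hr : ∀ x v w : T, ⁅x, v * w⁆ = ⁅x, v⁆ * ⁅x, w⁆ := fun x v w => by
      rw [← commutatorElement_inv (v * w) x, hbl, mul_inv_rev, commutatorElement_inv,
        commutatorElement_inv]
      obtain ⟨m, hm⟩ := hcz x w
      rw [← hm, (hzc m _).eq]
    have hzl : ∀ (x v : T) (m : ℤ), ⁅x ^ m, v⁆ = ⁅x, v⁆ ^ m := fun x v m => by rw [← hL, map_zpow, hL]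
    have hzr : ∀ (x v : T) (m : ℤ), ⁅x, v ^ m⁆ = ⁅x, v⁆ ^ m := fun x v m => by
      rw [← commutatorElement_inv, hzl, ← inv_zpow, commutatorElement_inv]
    have h0 : ∀ x, ⁅x, z'⁆ = 1 := fun x => by rw [← commutatorElement_inv, hFc z' hz', inv_one]
    simp only [hbl, hr, hzl, hzr, hFc z hz, h0, commutatorElement_self, one_zpow, one_mul, mul_one]
    rw [← commutatorElement_inv u y, inv_zpow', ← zpow_mul, ← zpow_mul, ← zpow_add]
    congr 1
    ring
  have hd : ∀ y : T, closure ({u, y} : Set T) ⊔ frattini T = ⊤ →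
      ∃ e : ℤ, ¬ (p : ℤ) ∣ e ∧ c ^ e = ⁅u, y⁆ := by
    intro y hy
    obtain ⟨e, he⟩ := hcz u y
    refine ⟨e, fun hdvd => hc1 ?_, he⟩
    have h1 : ⁅u, y⁆ = 1 := by
      obtain ⟨m, rfl⟩ := hdvd
      rw [← he, zpow_mul, zpow_natCast, hcp, one_zpow]
    have hbot : commutator T = ⊥ := by
      rw [eq_bot_iff, _root_.commutator_def, commutator_le]
      intro g _ h _
      obtain ⟨i, l, z, hz, rfl⟩ := exists_rep hcomF hy g
      obtain ⟨i', l', z', hz', rfl⟩ := exists_rep hcomF hy h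
      rw [hc2 y hy i l i' l' z z' hz hz', h1, one_zpow]
      exact one_mem _
    exact mem_bot.mp (hbot ▸ hcom.ge (mem_zpowers c))
  -- the action on `c` gives the determinant
  have hdet : ∀ (y : T), closure ({u, y} : Set T) ⊔ frattini T = ⊤ → ∀ (g : A) (k i l i' l' : ℤ)
      (z z' : T), z ∈ frattini T → z' ∈ frattini T → φ g c = c ^ k →
      φ g u = u ^ i * y ^ l * z → φ g y = u ^ i' * y ^ l' * z' → (p : ℤ) ∣ (i * l' - l * i') - k := by
    intro y hy g k i l i' l' z z' hz hz' hk h1 h2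
    obtain ⟨e, he, hed⟩ := hd y hy
    have h3 : φ g ⁅u, y⁆ = ⁅u, y⁆ ^ (i * l' - l * i') := by
      rw [map_commutatorElement, h1, h2, hc2 y hy i l i' l' z z' hz hz']
    rw [← hed, map_zpow, hk, ← zpow_mul, ← zpow_mul, mul_comm k] at h3
    have h4 : c ^ (e * ((i * l' - l * i') - k)) = 1 := by
      rw [mul_sub, zpow_sub, ← h3, mul_inv_cancel]
    exact ((Nat.prime_iff_prime_int.mp hp.out).dvd_or_dvd (hcp' _ h4)).resolve_left he
  have hk : ∀ g : A, ∃ k : ℤ, ¬ (p : ℤ) ∣ k ∧ φ g c = c ^ k := by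
    intro g
    have hm : φ g c ∈ zpowers c := by
      rw [← hcom]
      have h := Subgroup.map_commutator (⊤ : Subgroup T) ⊤ (φ g).toMonoidHom
      rw [map_top_of_surjective _ (φ g).surjective] at h
      rw [_root_.commutator_def, ← h]
      exact mem_map_of_mem _ (by rw [← _root_.commutator_def, hcom]; exact mem_zpowers c)
    obtain ⟨k, hk⟩ := mem_zpowers_iff.mp hm
    refine ⟨k, fun hdvd => hc1 ((φ g).injective ?_), hk.symm⟩
    obtain ⟨m, rfl⟩ := hdvd
    rw [map_one, ← hk, zpow_mul, zpow_natCast, hcp, one_zpow]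
  have hψu : ψ u = c := hu
  have hψφ : ∀ g x, ψ (φ g x) = φ g (ψ x) := fun g x => by rw [hψ, hψ, map_pow]
  by_cases hW : (zpowers c).comap ψ ⊔ frattini T = ⊤
  · -- `ψ` kills `Φ`: the kernel is a hyperplane
    have hR : ∀ n : ℕ, ∀ x : T, ∃ w : T, x ^ p ^ (j + 1) = (w ^ p ^ (j + 1)) ^ p ^ n := by
      intro n
      induction n with
      | zero => exact fun x => ⟨x, by simp⟩
      | succ n ih =>
        intro x
        obtain ⟨w, hw⟩ := ih x
        have hwm : w ∈ (zpowers c).comap ψ ⊔ frattini T := hW ▸ mem_top w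
        rw [← SetLike.mem_coe, mul_normal, Set.mem_mul] at hwm
        obtain ⟨v, hv, z, hz, rfl⟩ := hwm
        obtain ⟨m, hm⟩ := mem_zpowers_iff.mp (mem_comap.mp hv)
        obtain ⟨w', rfl⟩ := hFr.le hz
        refine ⟨w', ?_⟩
        have hmp : (c ^ m) ^ p = 1 := by
          rw [← zpow_natCast, ← zpow_mul, mul_comm, zpow_mul, zpow_natCast, hcp, one_zpow]
        rw [hw, hpj, pow_succ p j, pow_mul v, ← hψ, ← hm, hmp, one_mul, hπ, ← pow_mul, ← pow_mul,
          ← pow_mul]
        congr 1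
        ring
    have hψ1 : ∀ z ∈ frattini T, ψ z = 1 := by
      intro z hz
      obtain ⟨w, rfl⟩ := hFr.le hz
      obtain ⟨e, he⟩ := IsPGroup.iff_card.mp hT
      obtain ⟨w', hw'⟩ := hR e w
      rw [hψ, hπ, ← pow_mul, ← pow_succ', hw', ← he, pow_card_eq_one']
    obtain ⟨e, he⟩ : ∃ e : ℤ, ψ y = c ^ e := by
      have hym : y ∈ (zpowers c).comap ψ ⊔ frattini T := hW ▸ mem_top y
      rw [← SetLike.mem_coe, mul_normal, Set.mem_mul] at hym
      obtain ⟨v, hv, z, hz, rfl⟩ := hym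
      obtain ⟨m, hm⟩ := mem_zpowers_iff.mp (mem_comap.mp hv)
      exact ⟨m, by rw [map_mul, hψ1 z hz, mul_one, hm]⟩
    set y' := y * u ^ (-e) with hy'def
    have hy1 : ψ y' = 1 := by
      rw [hy'def, map_mul, map_zpow, he, hψu, zpow_neg, mul_inv_cancel]
    have hy' : closure ({u, y'} : Set T) ⊔ frattini T = ⊤ := by
      rw [eq_top_iff, ← hy]
      refine sup_le ((closure_le _).mpr ?_) le_sup_right
      have hu' : u ∈ closure ({u, y'} : Set T) ⊔ frattini T := mem_sup_left (subset_closure (by simp))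
      have hy2 : y' ∈ closure ({u, y'} : Set T) ⊔ frattini T := mem_sup_left (subset_closure (by simp))
      rintro x (rfl | rfl)
      · exact hu'
      · rw [SetLike.mem_coe, show x = y' * u ^ e by rw [hy'def]; group]
        exact mul_mem hy2 (zpow_mem hu' e)
    have hyfix : ∀ g, φ g y' * y'⁻¹ ∈ frattini T := by
      intro g
      obtain ⟨k, hk0, hkc⟩ := hk g
      obtain ⟨i, l, z, hz, h1⟩ := exists_rep hcomF hy' (φ g u)
      obtain ⟨i', l', z', hz', h2⟩ := exists_rep hcomF hy' (φ g y')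
      have e1 : c ^ i = c ^ k := by
        rw [← hkc, ← hψu, ← hψφ, h1]
        simp only [map_mul, map_zpow, hy1, hψ1 z hz, hψu, one_zpow, mul_one]
      have e2 : c ^ i' = 1 := by
        have : ψ (φ g y') = 1 := by rw [hψφ, hy1, map_one]
        rw [h2] at this
        simpa only [map_mul, map_zpow, hy1, hψ1 z' hz', hψu, one_zpow, mul_one] using this
      have hi : (p : ℤ) ∣ i - k := hcp' _ (by rw [zpow_sub, e1, mul_inv_cancel])
      have hi' := hcp' _ e2
      have h5 := hdet y' hy' g k i l i' l' z z' hz hz' hkc h1 h2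
      have hkl : (p : ℤ) ∣ k * (l' - 1) := by
        have : k * (l' - 1) = ((i * l' - l * i') - k) - (i - k) * l' + l * i' := by ring
        rw [this]
        exact dvd_add (dvd_sub h5 (hi.mul_right _)) (hi'.mul_left _)
      have hl' := ((Nat.prime_iff_prime_int.mp hp.out).dvd_or_dvd hkl).resolve_left hk0
      rw [← QuotientGroup.eq_one_iff, QuotientGroup.mk_mul, QuotientGroup.mk_inv, mul_inv_eq_one, h2,
        show (y' : T ⧸ frattini T) = ((1 * y' ^ l' * 1 * (y' ^ (l' - 1))⁻¹ : T) : T ⧸ frattini T) by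
          congr 1; group]
      simp only [QuotientGroup.mk_mul, QuotientGroup.mk_inv, QuotientGroup.mk_one,
        (QuotientGroup.eq_one_iff _).mpr (hyF y' _ hl'), (QuotientGroup.eq_one_iff _).mpr (hyF u _ hi'),
        (QuotientGroup.eq_one_iff _).mpr hz', inv_one, mul_one, one_mul]
    have hyF' : y' ∈ frattini T := mem_of_fixed φ hT hcop hcomF hFinv hgen hyfix
    have hu1 : zpowers u = ⊤ := by
      apply frattini_nongenerating
      rw [eq_top_iff, ← hy']
      refine sup_le ((closure_le _).mpr ?_) le_sup_right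
      rintro x (rfl | rfl)
      · exact mem_sup_left (mem_zpowers x)
      · exact mem_sup_right hyF'
    have hbot : commutator T = ⊥ := by
      rw [eq_bot_iff, _root_.commutator_def, commutator_le]
      intro g _ h _
      obtain ⟨i, rfl⟩ := mem_zpowers_iff.mp (hu1.ge (mem_top g))
      obtain ⟨i', rfl⟩ := mem_zpowers_iff.mp (hu1.ge (mem_top h))
      exact commutatorElement_eq_one_iff_commute.mpr ((Commute.refl u).zpow_zpow i i')
    exact hc1 (mem_bot.mp (hbot ▸ hcom.ge (mem_zpowers c)))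
  · -- the line through `u` is invariant and has trivial quotient
    set W := (zpowers c).comap ψ ⊔ frattini T with hWdef
    have huW : u ∈ W := mem_sup_left (mem_comap.mpr (hψu ▸ mem_zpowers c))
    have hyW : y ∉ W := fun hyW => hW (eq_top_iff.mpr (hy ▸ sup_le ((closure_le _).mpr (by
      rintro x (rfl | rfl)
      · exact huW
      · exact hyW)) le_sup_right))
    have hlW : ∀ l : ℤ, y ^ l ∈ W → (p : ℤ) ∣ l := by
      intro l hl
      by_contra hnl
      obtain ⟨s, t, hst⟩ : IsCoprime (p : ℤ) l :=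
        (Nat.prime_iff_prime_int.mp hp.out).coprime_iff_not_dvd.mpr hnl
      apply hyW
      rw [show y = (y ^ (p : ℤ)) ^ s * (y ^ l) ^ t by
        rw [← zpow_mul, ← zpow_mul, ← zpow_add, mul_comm (p : ℤ), mul_comm l, hst, zpow_one]]
      exact mul_mem (zpow_mem (mem_sup_right (hyF y p dvd_rfl)) s) (zpow_mem hl t)
    haveI hWn : W.Normal := ⟨fun n hn g => by
      have : ⁅g, n⁆ ∈ W := mem_sup_right (hcomF (commutator_mem_commutator (mem_top g) (mem_top n)))
      simpa [commutatorElement_def, mul_assoc] using mul_mem this hn⟩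
    refine hW (hgen W fun g t => ?_)
    obtain ⟨k, hk0, hkc⟩ := hk g
    obtain ⟨i, l, z, hz, h1⟩ := exists_rep hcomF hy (φ g u)
    obtain ⟨i', l', z', hz', h2⟩ := exists_rep hcomF hy (φ g y)
    have hσu : φ g u ∈ W := mem_sup_left (mem_comap.mpr (by
      rw [hψφ, hψu, hkc]; exact zpow_mem (mem_zpowers c) k))
    have hl : (p : ℤ) ∣ l := hlW l (by
      rw [show y ^ l = (u ^ i)⁻¹ * φ g u * z⁻¹ by rw [h1]; group]
      exact mul_mem (mul_mem (inv_mem (zpow_mem huW i)) hσu) (inv_mem (mem_sup_right hz)))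
    have hi : (p : ℤ) ∣ k - i := by
      refine hψF _ (mul_mem (hyF y l hl) hz) (k - i) ?_
      rw [zpow_sub, ← hkc, ← hψu, ← hψφ, h1, ← map_zpow, ← map_inv, ← map_mul]
      congr 1
      obtain ⟨m, rfl⟩ := hl
      have hcm : ∀ w ∈ frattini T, ∀ x : T, Commute w x := fun w hw x =>
        commutatorElement_eq_one_iff_commute.mp (hFc w hw x)
      rw [mul_assoc (u ^ i), ← (hcm _ (mul_mem (hyF y _ ⟨m, rfl⟩) hz) (u ^ i)).eq]
      group
    have h5 := hdet y hy g k i l i' l' z z' hz hz' hkc h1 h2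
    have hkl : (p : ℤ) ∣ k * (l' - 1) := by
      have : k * (l' - 1) = ((i * l' - l * i') - k) + (k - i) * l' + l * i' := by ring
      rw [this]
      exact dvd_add (dvd_add h5 (hi.mul_right _)) (hl.mul_right _)
    have hl' := ((Nat.prime_iff_prime_int.mp hp.out).dvd_or_dvd hkl).resolve_left hk0
    obtain ⟨α, β, w, hw, rfl⟩ := exists_rep hcomF hy t
    have hWmk : ∀ x ∈ W, (x : T ⧸ W) = 1 := fun x hx => (QuotientGroup.eq_one_iff x).mpr hx
    have hy2 : (φ g y : T ⧸ W) = (y : T ⧸ W) := by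
      rw [h2, show (y : T ⧸ W) = ((1 * y ^ l' * 1 * (y ^ (l' - 1))⁻¹ : T) : T ⧸ W) by congr 1; group]
      simp only [QuotientGroup.mk_mul, QuotientGroup.mk_inv, QuotientGroup.mk_one,
        hWmk _ (mem_sup_right (hyF y _ hl')), hWmk _ (zpow_mem huW i'), hWmk _ (mem_sup_right hz'),
        inv_one, mul_one, one_mul]
    rw [← QuotientGroup.eq_one_iff]
    simp only [map_mul, map_zpow, QuotientGroup.mk_mul, QuotientGroup.mk_inv, QuotientGroup.mk_zpow,
      hWmk _ hσu, hWmk _ huW, hy2, hWmk _ (mem_sup_right hw), hWmk _ (mem_sup_right (hFinv g w hw))]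
    group

/-- An odd metacyclic `p`-group with coprime operators and `[T, A] = T` is abelian. -/
theorem comm_of_metacyclic (φ : A →* MulAut T) (hT : IsPGroup p T) (hp2 : p ≠ 2)
    (hcop : (Nat.card A).Coprime p) (hm : Cfsg.IsMetacyclic T)
    (hgen : ∀ W : Subgroup T, (∀ a t, φ a t * t⁻¹ ∈ W) → W = ⊤) : IsMulCommutative T := by
  obtain ⟨D⟩ := Metacyclic.exists_params hp2 hT hm
  set c := D.a ^ (D.r - 1) with hcdef
  have hcom : commutator T = zpowers c := D.commutator_eq
  by_cases hc1 : c = 1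
  · refine ⟨⟨fun x y => ?_⟩⟩
    have : ⁅x, y⁆ = 1 := mem_bot.mp (by
      rw [hc1, zpowers_one_eq_bot] at hcom
      exact hcom ▸ commutator_mem_commutator (mem_top x) (mem_top y))
    exact commutatorElement_eq_one_iff_commute.mp this
  exfalso
  have hmem : ∀ (e : MulAut T) {z : T}, z ∈ zpowers c → e z ∈ zpowers c := by
    intro e z hz
    rw [← hcom] at hz ⊢
    exact (Subgroup.characteristic_iff_map_le.mp inferInstance e) (mem_map_of_mem _ hz)
  -- the derived group is central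
  have hcc : c ∈ center T := by
    have hW : centralizer ((zpowers c : Subgroup T) : Set T) = ⊤ := by
      refine hgen _ fun a g => ?_
      rw [mem_centralizer_iff]
      intro z hz
      obtain ⟨k, hk⟩ := MonoidHom.map_cyclic
        (((MulAut.conj g).toMonoidHom.comp (zpowers c).subtype).codRestrict (zpowers c) fun w =>
          hmem (MulAut.conj g) w.2)
      have hkey : ∀ w ∈ zpowers c, g * w * g⁻¹ = w ^ k := fun w hw => by
        simpa using congrArg Subtype.val (hk ⟨w, hw⟩)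
      have h1 : φ a g * z * (φ a g)⁻¹ = z ^ k := by
        have h0 := hkey ((φ a)⁻¹ z) (hmem _ hz)
        have := congrArg (φ a) h0
        simpa [map_zpow] using this
      have h2 := hkey z hz
      have h3 : g⁻¹ * z ^ k * g = z := by rw [← h2]; group
      calc z * (φ a g * g⁻¹) = φ a g * ((φ a g)⁻¹ * z * φ a g) * g⁻¹ := by group
        _ = φ a g * (g⁻¹ * z * g) * g⁻¹ := by
          congr 2
          obtain ⟨w, hw, rfl⟩ : ∃ w ∈ zpowers c, z = w ^ k := ⟨g⁻¹ * z * g, by
              simpa using hmem (MulAut.conj g⁻¹) hz, by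
              rw [← hkey _ (by simpa using hmem (MulAut.conj g⁻¹) hz)]; group⟩
          have h1' : φ a g * w * (φ a g)⁻¹ = w ^ k := by
            have h0 := hkey ((φ a)⁻¹ w) (hmem _ hw)
            have := congrArg (φ a) h0
            simpa [map_zpow] using this
          rw [← h1']
          conv_rhs => rw [h1', ← hkey w hw]
          group
        _ = φ a g * g⁻¹ * z := by group
    rw [mem_center_iff]
    exact fun g => ((mem_centralizer_iff.mp (hW.ge (mem_top g))) c (mem_zpowers c)).symm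
  -- factor out `(T')^p`
  set N := zpowers (c ^ p) with hN
  haveI : N.Normal := Thompson.normal_of_le_center (zpowers_le.mpr (pow_mem hcc p))
  have hNle : ∀ a, ∀ z ∈ N, φ a z ∈ N := by
    intro a z hz
    obtain ⟨i, rfl⟩ := mem_zpowers_iff.mp hz
    obtain ⟨k, hk⟩ := mem_zpowers_iff.mp (hmem (φ a) (mem_zpowers c))
    have h1 : φ a (c ^ p) = (c ^ p) ^ k := by
      have hx : ∀ x : T, (x ^ k) ^ p = (x ^ p) ^ k := fun x => by
        rw [← zpow_natCast, ← zpow_natCast x, ← zpow_mul, ← zpow_mul, mul_comm]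
      rw [map_pow, ← hk, hx]
    rw [map_zpow, h1]
    exact zpow_mem (zpow_mem (mem_zpowers _) k) i
  have hmapN : ∀ a, N.map (φ a).toMonoidHom = N := fun a => le_antisymm
    (by rintro _ ⟨z, hz, rfl⟩; exact hNle a z hz)
    fun z hz => ⟨φ a⁻¹ z, hNle a⁻¹ z hz, by simp⟩
  let ψ : A →* MulAut (T ⧸ N) :=
    { toFun := fun a => QuotientGroup.congr N N (φ a) (hmapN a)
      map_one' := by
        ext x; obtain ⟨x, rfl⟩ := QuotientGroup.mk_surjective x; simp
      map_mul' := fun a b => by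
        ext x; obtain ⟨x, rfl⟩ := QuotientGroup.mk_surjective x; simp; rfl }
  refine false_of_prime ψ (hT.to_quotient N) hp2 hcop (c := (c : T ⧸ N)) ?_ ?_ ?_ ?_ ?_
    (a := (D.a : T ⧸ N)) (b := (D.b : T ⧸ N)) ?_ ?_
  · rw [Ne, QuotientGroup.eq_one_iff]
    intro h
    obtain ⟨i, hi⟩ := mem_zpowers_iff.mp h
    obtain ⟨n, hn⟩ := IsPGroup.iff_orderOf.mp hT c
    have hn0 : n ≠ 0 := fun h0 => hc1 (orderOf_eq_one_iff.mp (by rw [hn, h0, pow_zero]))
    have h1 : (orderOf c : ℤ) ∣ (p : ℤ) * i - 1 := by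
      rw [orderOf_dvd_iff_zpow_eq_one, zpow_sub_one, zpow_mul, zpow_natCast, hi, mul_inv_cancel]
    have h2 : (p : ℤ) ∣ (p : ℤ) * i - 1 :=
      (Int.natCast_dvd_natCast.mpr (hn ▸ dvd_pow_self p hn0)).trans h1
    have := Int.natCast_dvd_natCast.mp
      ((dvd_sub (dvd_mul_right (p : ℤ) i) h2).trans (dvd_of_eq (sub_sub_cancel _ ((1 : ℕ) : ℤ))))
    exact hp.out.ne_one (Nat.dvd_one.mp this)
  · rw [← QuotientGroup.mk_pow, QuotientGroup.eq_one_iff]
    exact mem_zpowers _
  · refine mem_center_iff.mpr fun x => ?_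
    obtain ⟨x, rfl⟩ := QuotientGroup.mk_surjective x
    rw [← QuotientGroup.mk_mul, ← QuotientGroup.mk_mul, mem_center_iff.mp hcc x]
  · have h := Subgroup.map_commutator (⊤ : Subgroup T) ⊤ (QuotientGroup.mk' N)
    rw [map_top_of_surjective _ (QuotientGroup.mk'_surjective N), ← _root_.commutator_def, hcom,
      MonoidHom.map_zpowers] at h
    exact h.symm
  · obtain ⟨t, ht⟩ := D.cong
    exact ⟨((D.a ^ t : T) : T ⧸ N), by
      rw [← QuotientGroup.mk_pow, hcdef, ht, ← zpow_natCast, ← zpow_mul, mul_comm]⟩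
  · rw [eq_top_iff]
    intro x _
    obtain ⟨x, rfl⟩ := QuotientGroup.mk_surjective x
    obtain ⟨i, j, rfl⟩ := D.gen x
    rw [QuotientGroup.mk_mul, QuotientGroup.mk_zpow, QuotientGroup.mk_pow]
    exact mul_mem (zpow_mem (subset_closure (by simp)) i) (pow_mem (subset_closure (by simp)) j)
  · intro W hW
    have h := hgen (W.comap (QuotientGroup.mk' N)) fun a t => by
      exact hW a (t : T ⧸ N)
    rw [eq_top_iff]
    intro x _
    obtain ⟨x, rfl⟩ := QuotientGroup.mk_surjective x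
    exact h.ge (mem_top x)

end Cfsg.Agent.Lib.Hall.MetacyclicAct
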