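import Cfsg.Agent.Lib.Hall.OddRankTwo
import Cfsg.Agent.Lib.UniqueInvolution

/-!
An automorphism of prime order `ℓ ∤ p(p-1)` of a `p`-group of rank at most two: `ℓ` divides `p + 1`, and a
nonabelian group without fixed quotient is extraspecial of order `p³`.
-/

set_option autoImplicit false

namespace Cfsg.Agent.Lib.Hall

open Subgroup Cfsg.Agent.Lib
open scoped commutatorElement

universe u

variable {p : ℕ} [hp : Fact p.Prime] {ℓ : ℕ} [hl : Fact ℓ.Prime]

/-- Orbit counting for an automorphism of prime order. -/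
theorem card_modEq_fixed {V : Type*} [Group V] [Finite V] (σ : MulAut V) (hσ : σ ^ ℓ = 1) (Y : Subgroup V)
    (hY : ∀ v : V, v ∈ Y ↔ σ v = v) : Nat.card V ≡ Nat.card Y [MOD ℓ] := by
  letI : MulAction (zpowers σ) V := MulAction.compHom V (zpowers σ).subtype
  have hZ : IsPGroup ℓ (zpowers σ) := by
    rintro ⟨z, hz⟩
    obtain ⟨i, rfl⟩ := mem_zpowers_iff.mp hz
    exact ⟨1, Subtype.ext (by
      show (σ ^ i) ^ (ℓ ^ 1) = 1
      rw [pow_one, ← zpow_natCast, ← _root_.zpow_mul, mul_comm, _root_.zpow_mul, zpow_natCast, hσ, one_zpow])⟩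
  have hfix : MulAction.fixedPoints (zpowers σ) V = (Y : Set V) := by
    ext v
    refine ⟨fun h => (hY v).mpr (h ⟨σ, mem_zpowers σ⟩), fun h => ?_⟩
    rintro ⟨z, hz⟩
    exact (zpowers_le.mpr ((hY v).mp h) : zpowers σ ≤ MulAction.stabilizer (MulAut V) v) hz
  have hmod := hZ.card_modEq_card_fixedPoints V
  rw [hfix] at hmod
  exact hmod

/-- The divisibility facts behind it. -/
theorem prime_dvd_cases (hnd : ¬ ℓ ∣ p * (p - 1)) {m i : ℕ} (hm : m ≤ 2) (him : i < m)
    (h : p ^ m ≡ p ^ i [MOD ℓ]) : m = 2 ∧ i = 0 ∧ ℓ ∣ p + 1 := by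
  have hle : p ^ i ≤ p ^ m := Nat.pow_le_pow_right hp.out.pos him.le
  have hd := (Nat.modEq_iff_dvd' hle).mp h.symm
  have h1 : ¬ ℓ ∣ p - 1 := fun h => hnd (h.mul_left p)
  have h2 : ¬ ℓ ∣ p := fun h => hnd (h.mul_right _)
  have hfac : p ^ m - p ^ i = p ^ i * (p ^ (m - i) - 1) := by
    rw [Nat.mul_sub, mul_one, ← pow_add, Nat.add_sub_cancel' him.le]
  rw [hfac] at hd
  rcases hl.out.dvd_mul.mp hd with hd | hd
  · exact absurd (hl.out.dvd_of_dvd_pow hd) h2
  · obtain hj | hj : m - i = 1 ∨ m - i = 2 := by omega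
    · rw [hj, pow_one] at hd; exact absurd hd h1
    · rw [hj, show p ^ 2 - 1 = (p + 1) * (p - 1) by rw [← Nat.sq_sub_sq, one_pow]] at hd
      exact ⟨by omega, by omega, (hl.out.dvd_mul.mp hd).resolve_right h1⟩

/-- A nontrivial action on an exponent-`p` abelian group of order `≤ p²` is fixed point free. -/
theorem fpf_of_small (hnd : ¬ ℓ ∣ p * (p - 1)) {V : Type*} [CommGroup V] [Finite V] (hV : ∀ v : V, v ^ p = 1)
    (hcard : Nat.card V ≤ p ^ 2) (σ : MulAut V) (hσ : σ ^ ℓ = 1) (hne : σ ≠ 1) :
    Nat.card V = p ^ 2 ∧ (∀ v : V, σ v = v → v = 1) ∧ ℓ ∣ p + 1 := by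
  let Y : Subgroup V :=
    { carrier := {v | σ v = v}
      one_mem' := map_one σ
      mul_mem' := fun {x y} hx hy => by show σ (x * y) = x * y; rw [map_mul, hx, hy]
      inv_mem' := fun {x} hx => by show σ x⁻¹ = x⁻¹; rw [map_inv, hx] }
  have hmod := card_modEq_fixed σ hσ Y fun v => Iff.rfl
  have hVp : IsPGroup p V := fun v => ⟨1, by rw [pow_one, hV]⟩
  obtain ⟨m, hm⟩ := IsPGroup.iff_card.mp hVp
  obtain ⟨i, hi⟩ := IsPGroup.iff_card.mp (hVp.to_subgroup Y)
  have hm2 : m ≤ 2 := (Nat.pow_le_pow_iff_right hp.out.one_lt).mp (hm ▸ hcard)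
  have him : i < m := by
    have hlt : Nat.card Y < Nat.card V := Lib.Coprime.card_lt_of_ne_top fun h =>
      hne (MulEquiv.ext fun v => (h ▸ mem_top v : v ∈ Y))
    rw [hm, hi] at hlt
    exact (Nat.pow_lt_pow_iff_right hp.out.one_lt).mp hlt
  obtain ⟨h1, h2, h3⟩ := prime_dvd_cases hnd hm2 him (hm ▸ hi ▸ hmod)
  refine ⟨by rw [hm, h1], fun v hv => ?_, h3⟩
  have hY : Y = ⊥ := card_eq_one.mp (by rw [hi, h2, pow_zero])
  exact mem_bot.mp (hY ▸ (show v ∈ Y from hv))

/-- An invariant subgroup without fixed points is trivial or has order `p²`. -/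
theorem invariant_small (hnd : ¬ ℓ ∣ p * (p - 1)) {R : Type*} [Group R] [Finite R] (hR : IsPGroup p R)
    (σ : MulAut R) (hσ : σ ^ ℓ = 1) (N : Subgroup R) (hN : ∀ v ∈ N, σ v ∈ N)
    (hfree : ∀ v ∈ N, σ v = v → v = 1) (hcard : Nat.card N ≤ p) : N = ⊥ := by
  let τ : MulAut N := FPF.restrictAut σ hN
  have hτ : τ ^ ℓ = 1 := by
    apply MulEquiv.ext
    intro x
    refine Subtype.ext ?_
    rw [FPF.restrictAut_pow, hσ]
    rfl
  have hY : ∀ v : N, v ∈ (⊥ : Subgroup N) ↔ τ v = v := fun v => by
    refine ⟨fun h => by rw [mem_bot.mp h, map_one], fun h => mem_bot.mpr (Subtype.ext (hfree v v.2 ?_))⟩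
    rw [← FPF.restrictAut_apply σ hN, h]
  have hmod := card_modEq_fixed τ hτ ⊥ hY
  obtain ⟨i, hi⟩ := IsPGroup.iff_card.mp (hR.to_subgroup N)
  by_contra hne
  have hi0 : 0 < i := Nat.pos_of_ne_zero fun h => hne (card_eq_one.mp (by rw [hi, h, pow_zero]))
  have hi1 : i ≤ 1 := (Nat.pow_le_pow_iff_right hp.out.one_lt).mp (by rw [pow_one, ← hi]; exact hcard)
  rw [hi, card_bot] at hmod
  have h := (prime_dvd_cases hnd (m := i) (i := 0) (by omega) hi0 (by rwa [pow_zero])).1
  omega

/-- If the elements of order `p` are central, at most `p²` in number, and `σ` moves each, the group is abelian. -/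
theorem comm_of_pCentral (hp2 : p ≠ 2) (hnd : ¬ ℓ ∣ p * (p - 1)) : ∀ (n : ℕ) {R : Type u} [Group R] [Finite R],
    Nat.card R = n → IsPGroup p R → (σ : MulAut R) → σ ^ ℓ = 1 → ∀ Ω : Subgroup R,
    (∀ y : R, y ^ p = 1 ↔ y ∈ Ω) → Ω ≤ center R → Nat.card Ω ≤ p ^ 2 →
    (∀ y ∈ Ω, σ y = y → y = 1) → ∀ a b : R, a * b = b * a := by
  intro n
  induction n using Nat.strong_induction_on with
  | _ n ih =>
  intro R _ _ hn hR σ hσ Ω hΩ hΩc hΩ2 hfree
  haveI hΩn : Ω.Normal := Thompson.normal_of_le_center hΩc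
  by_cases htop : Ω = ⊤
  · exact fun a b => (mem_center_iff.mp (hΩc (htop ▸ mem_top a)) b).symm
  have hΩinv : ∀ y ∈ Ω, σ y ∈ Ω := fun y hy => by
    rw [← hΩ, ← map_pow, (hΩ y).mpr hy, map_one]
  have hcΩ : ∀ y ∈ Ω, ∀ g : R, Commute y g := fun y hy g => (mem_center_iff.mp (hΩc hy) g).symm
  have hzp : ∀ y ∈ Ω, y ^ p.choose 2 = 1 := fun y hy => by
    obtain ⟨c, hc⟩ : p ∣ p.choose 2 := Nat.Prime.dvd_choose_self hp.out two_ne_zero
      (lt_of_le_of_ne hp.out.two_le (Ne.symm hp2))
    rw [hc, pow_mul, (hΩ y).mpr hy, one_pow]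
  have hpow : ∀ x y : R, ⁅y⁻¹, x⁻¹⁆ ∈ Ω → (x * y) ^ p = x ^ p * y ^ p := fun x y h => by
    rw [Thompson.mul_pow_class_two (Thompson.mul_comm_eq x y) (hcΩ _ h x) (hcΩ _ h y), hzp _ h, mul_one]
  let T : Subgroup R :=
    { carrier := {x | x ^ p ∈ Ω ∧ ∀ g : R, ⁅x, g⁆ ∈ Ω}
      one_mem' := ⟨by rw [one_pow]; exact one_mem _, fun g => by rw [commutatorElement_one_left]; exact one_mem _⟩
      mul_mem' := fun {a b} ha hb => ⟨by
        rw [hpow a b]
        · exact mul_mem ha.1 hb.1
        · rw [← commutatorElement_inv]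
          refine inv_mem ?_
          have h1 := ha.2 b
          have e : ⁅a⁻¹, b⁻¹⁆ = (a * b)⁻¹ * ⁅a, b⁆ * (a * b) := by simp only [commutatorElement_def]; group
          rw [e]
          have := hΩn.conj_mem _ h1 (a * b)⁻¹
          simpa [mul_assoc] using this, fun g => by
        have e : ⁅a * b, g⁆ = a * ⁅b, g⁆ * a⁻¹ * ⁅a, g⁆ := by simp only [commutatorElement_def]; group
        rw [e]
        exact mul_mem (hΩn.conj_mem _ (hb.2 g) a) (ha.2 g)⟩
      inv_mem' := fun {a} ha => ⟨by rw [inv_pow]; exact inv_mem ha.1, fun g => by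
        have e : ⁅a⁻¹, g⁆ = a⁻¹ * ⁅a, g⁆⁻¹ * (a⁻¹)⁻¹ := by simp only [commutatorElement_def]; group
        rw [e]
        exact hΩn.conj_mem _ (inv_mem (ha.2 g)) a⁻¹⟩ }
  have hTσ : ∀ x ∈ T, σ x ∈ T := fun x hx => ⟨by rw [← map_pow]; exact hΩinv _ hx.1, fun g => by
    rw [← σ.apply_symm_apply g, ← map_commutatorElement]; exact hΩinv _ (hx.2 _)⟩
  have hTcomm : ∀ x ∈ T, ∀ y : R, ⁅y⁻¹, x⁻¹⁆ ∈ Ω := fun x hx y => by
    rw [← commutatorElement_inv]
    exact inv_mem ((inv_mem hx : x⁻¹ ∈ T).2 y⁻¹)
  let π : T →* R :=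
    { toFun := fun x => (x : R) ^ p
      map_one' := by simp
      map_mul' := fun x y => hpow x y (hTcomm x x.2 y) }
  have hrange : π.range ≤ Ω := by rintro _ ⟨x, rfl⟩; exact x.2.1
  have hker : π.ker = Ω.subgroupOf T := by
    ext x; rw [MonoidHom.mem_ker, mem_subgroupOf, ← hΩ]; rfl
  have hsurj : π.range = Ω := by
    refine eq_of_le_of_card_ge hrange (hΩ2.trans ?_)
    obtain ⟨i, hi⟩ := IsPGroup.iff_card.mp (hR.to_subgroup π.range)
    rw [hi]
    refine Nat.pow_le_pow_right hp.out.pos ?_
    by_contra hlt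
    have hbot : π.range = ⊥ := invariant_small hnd hR σ hσ _
      (by rintro _ ⟨x, rfl⟩; exact ⟨⟨σ x, hTσ _ x.2⟩, (map_pow σ (x : R) p).symm⟩)
      (fun v hv h => hfree v (hrange hv) h)
      (by
        rw [hi]
        have h1 : i ≤ 1 := by omega
        simpa using Nat.pow_le_pow_right hp.out.pos h1)
    haveI : Nontrivial (R ⧸ Ω) := QuotientGroup.nontrivial_iff.mpr htop
    obtain ⟨w, -, hwc, hwo⟩ := Thompson.exists_central_order_p (hR.to_quotient Ω) (N := (⊤ : Subgroup (R ⧸ Ω))) top_ne_bot
    obtain ⟨x, rfl⟩ := QuotientGroup.mk'_surjective Ω w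
    have hxT : x ∈ T := ⟨by
      rw [← QuotientGroup.eq_one_iff, QuotientGroup.mk_pow]
      exact hwo ▸ pow_orderOf_eq_one _, fun g => by
      rw [← QuotientGroup.eq_one_iff, ← QuotientGroup.mk'_apply, map_commutatorElement,
        commutatorElement_eq_one_iff_mul_comm]
      exact (mem_center_iff.mp hwc _).symm⟩
    have hxΩ : x ∈ Ω := (hΩ x).mp (mem_bot.mp (hbot ▸ ⟨⟨x, hxT⟩, rfl⟩ : x ^ p ∈ (⊥ : Subgroup R)))
    rw [QuotientGroup.mk'_apply, (QuotientGroup.eq_one_iff x).mpr hxΩ, orderOf_one] at hwo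
    exact hp.out.ne_one hwo.symm
  have hall : ∀ y : R, y ^ p ∈ Ω → y ∈ T := fun y hy => by
    obtain ⟨⟨x, hx⟩, hxy⟩ : y ^ p ∈ π.range := hsurj.ge hy
    have h1 : (y * x⁻¹) ^ p = 1 := by
      rw [hpow y x⁻¹ ?_, inv_pow, show x ^ p = y ^ p from hxy, mul_inv_cancel]
      rw [inv_inv]
      exact hx.2 y⁻¹
    have h2 : y * x⁻¹ ∈ Ω := (hΩ _).mp h1
    have hΩT : y * x⁻¹ ∈ T := ⟨by rw [h1]; exact one_mem _, fun g => by
      rw [commutatorElement_eq_one_iff_mul_comm.mpr (hcΩ _ h2 g).eq]; exact one_mem _⟩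
    simpa using mul_mem hΩT hx
  let Ω' : Subgroup (R ⧸ Ω) := T.map (QuotientGroup.mk' Ω)
  have hσmap : Ω.map σ.toMonoidHom = Ω := by
    ext y
    constructor
    · rintro ⟨z, hz, rfl⟩; exact hΩinv z hz
    · intro hy
      refine ⟨σ⁻¹ y, ?_, MulAut.apply_inv_self _ _ _⟩
      show σ⁻¹ y ∈ Ω
      rw [← hΩ, ← map_pow, (hΩ y).mpr hy, map_one]
  let σ' : MulAut (R ⧸ Ω) := QuotientGroup.congr Ω Ω σ hσmap
  have hσ' : σ' ^ ℓ = 1 := by
    have key : ∀ (m : ℕ) (x : R), (σ' ^ m) (x : R ⧸ Ω) = (((σ ^ m) x : R) : R ⧸ Ω) := by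
      intro m
      induction m with
      | zero => intro x; rfl
      | succ m ihm => intro x; rw [pow_succ', MulAut.mul_apply, ihm, pow_succ', MulAut.mul_apply]; rfl
    apply MulEquiv.ext
    intro x
    induction x using QuotientGroup.induction_on with
    | H x => rw [key, hσ]; rfl
  have hquot : ∀ a b : R ⧸ Ω, a * b = b * a := by
    have hlt : Nat.card (R ⧸ Ω) < n := by
      refine hn ▸ Lib.Coprime.card_quotient_lt ?_
      intro hbot
      haveI : Nontrivial R := by
        by_contra h
        haveI := not_nontrivial_iff_subsingleton.mp h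
        exact htop (Subsingleton.elim _ _)
      obtain ⟨w, -, -, hwo⟩ := Thompson.exists_central_order_p hR (N := (⊤ : Subgroup R)) top_ne_bot
      have hwΩ : w ∈ Ω := (hΩ w).mp (by rw [← hwo, pow_orderOf_eq_one])
      rw [hbot, mem_bot] at hwΩ
      rw [hwΩ, orderOf_one] at hwo
      exact hp.out.ne_one hwo.symm
    refine ih _ hlt rfl (hR.to_quotient Ω) σ' hσ' Ω' (fun y => ?_) ?_ ?_ ?_
    · obtain ⟨y, rfl⟩ := QuotientGroup.mk'_surjective Ω y
      rw [← map_pow, QuotientGroup.mk'_apply, QuotientGroup.eq_one_iff]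
      refine ⟨fun h => mem_map_of_mem _ (hall y h), ?_⟩
      rintro ⟨x, hx, hxy⟩
      rw [← QuotientGroup.eq_one_iff, QuotientGroup.mk_pow, ← QuotientGroup.mk'_apply, ← hxy,
        QuotientGroup.mk'_apply, ← QuotientGroup.mk_pow, QuotientGroup.eq_one_iff]
      exact hx.1
    · rintro _ ⟨x, hx, rfl⟩
      refine mem_center_iff.mpr fun g => ?_
      obtain ⟨g, rfl⟩ := QuotientGroup.mk'_surjective Ω g
      rw [eq_comm, ← commutatorElement_eq_one_iff_mul_comm, ← map_commutatorElement, QuotientGroup.mk'_apply,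
        QuotientGroup.eq_one_iff]
      exact hx.2 g
    · have h1 := Lib.Coprime.card_map_mul_card_inf_ker (QuotientGroup.mk' Ω) T
      have h2 := π.ker.card_mul_index
      rw [index_ker, hsurj, hker, Lib.Coprime.card_subgroupOf (fun y hy => hall y (by
        rw [(hΩ y).mpr hy]; exact one_mem _))] at h2
      rw [QuotientGroup.ker_mk', inf_eq_right.mpr (fun y hy => hall y (by
        rw [(hΩ y).mpr hy]; exact one_mem _)), ← h2, mul_comm] at h1
      exact (Nat.eq_of_mul_eq_mul_left Nat.card_pos h1).le.trans hΩ2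
    · rintro _ ⟨x, hx, rfl⟩ h
      have h' : ((σ x : R) : R ⧸ Ω) = (x : R ⧸ Ω) := h
      have hmem : x⁻¹ * σ x ∈ Ω := QuotientGroup.eq.mp h'.symm
      have e : σ x = x * (x⁻¹ * σ x) := by group
      have hfix : σ (x ^ p) = x ^ p := by
        rw [map_pow, e, (hcΩ _ hmem x).symm.mul_pow, (hΩ _).mpr hmem, mul_one]
      exact (QuotientGroup.eq_one_iff x).mpr ((hΩ x).mp (hfree _ hx.1 hfix))
  have hR' : ∀ a b : R, ⁅a, b⁆ ∈ Ω := fun a b => by
    rw [← QuotientGroup.eq_one_iff, ← QuotientGroup.mk'_apply, map_commutatorElement,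
      commutatorElement_eq_one_iff_mul_comm]
    exact hquot _ _
  let P : R →* R :=
    { toFun := fun x => x ^ p
      map_one' := one_pow p
      map_mul' := fun x y => hpow x y (hR' _ _) }
  by_contra hnc
  push Not at hnc
  obtain ⟨x, y, hxy⟩ := hnc
  have hpc : ∀ a b : R, Commute (a ^ p) b := fun a b => by
    have h1 : Commute ⁅b, a⁆ a := hcΩ _ (hR' b a) a
    have e : ⁅b, a ^ p⁆ = ⁅b, a⁆ ^ p := by
      rw [← Thompson.commutator_pow_right h1]
    rw [(hΩ _).mpr (hR' b a), commutatorElement_eq_one_iff_mul_comm] at e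
    exact e.symm
  have hI : P.range ≤ center R := by
    rintro _ ⟨a, rfl⟩
    exact mem_center_iff.mpr fun b => (hpc a b).eq.symm
  have hidx : (center R).index ≤ p ^ 2 := by
    refine le_trans (Nat.le_of_dvd (Nat.pos_of_ne_zero index_ne_zero_of_finite) (index_dvd_of_le hI)) ?_
    have h1 := P.range.card_mul_index
    rw [← P.ker.index_mul_card, index_ker, show P.ker = Ω by
      ext v; rw [MonoidHom.mem_ker, ← hΩ]; rfl] at h1
    exact (Nat.eq_of_mul_eq_mul_left Nat.card_pos h1).le.trans hΩ2
  -- the derived group is generated by one commutator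
  set X : Subgroup R := center R ⊔ zpowers x
  have hXc : ∀ v ∈ X, Commute v x := fun v hv => by
    have hle : X ≤ centralizer {x} :=
      sup_le (center_le_centralizer _) (zpowers_le.mpr (mem_centralizer_singleton_iff.mpr rfl))
    exact (mem_centralizer_singleton_iff.mp (hle hv))
  have hyX : y ∉ X := fun h => hxy (hXc y h).symm.eq
  have hxZ : x ∉ center R := fun h => hxy (mem_center_iff.mp h y).symm
  have htop' : X ⊔ zpowers y = ⊤ := by
    by_contra hne
    have h1 : center R < X := lt_of_le_of_ne le_sup_left fun e => hxZ (e ▸ mem_sup_right (mem_zpowers x))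
    have h2 : X < X ⊔ zpowers y := lt_of_le_of_ne le_sup_left fun e => hyX (e ▸ mem_sup_right (mem_zpowers y))
    have h3 := Thompson.card_mul_p_le hR h1
    have h4 := Thompson.card_mul_p_le hR h2
    have h5 := Thompson.card_mul_p_le hR (lt_top_iff_ne_top.mpr hne)
    rw [Nat.card_congr Subgroup.topEquiv.toEquiv, ← (center R).index_mul_card] at h5
    have h6 : p * (p * (p * Nat.card (center R))) ≤ p ^ 2 * Nat.card (center R) :=
      ((Nat.mul_le_mul_left p ((Nat.mul_le_mul_left p h3).trans h4)).trans h5).trans (Nat.mul_le_mul_right _ hidx)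
    have := Nat.le_of_mul_le_mul_right (by linarith [h6] : (p * (p * p)) * Nat.card (center R) ≤ p ^ 2 * Nat.card (center R)) Nat.card_pos
    nlinarith [hp.out.two_le]
  set c := ⁅x, y⁆ with hcdef
  have hcn : (zpowers c).Normal := Thompson.normal_of_le_center ((zpowers_le.mpr (hΩc (hR' x y))))
  have hall' : ∀ a b : R, ⁅a, b⁆ ∈ zpowers c := by
    let q := QuotientGroup.mk' (zpowers c)
    have hqxy : Commute (q x) (q y) := by
      rw [commute_iff_eq, ← commutatorElement_eq_one_iff_mul_comm, ← map_commutatorElement, QuotientGroup.mk'_apply,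
        QuotientGroup.eq_one_iff]
      exact mem_zpowers c
    have hgen : ∀ v : R, Commute (q v) (q x) ∧ Commute (q v) (q y) := by
      have hle : X ⊔ zpowers y ≤ (centralizer {q x}).comap q ⊓ (centralizer {q y}).comap q := by
        refine sup_le (sup_le (fun v hv => ⟨?_, ?_⟩) (zpowers_le.mpr ⟨?_, ?_⟩)) (zpowers_le.mpr ⟨?_, ?_⟩) <;>
          refine mem_centralizer_singleton_iff.mpr ?_
        · exact ((show Commute v x from (mem_center_iff.mp hv x).symm).map q).eq
        · exact ((show Commute v y from (mem_center_iff.mp hv y).symm).map q).eq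
        · rfl
        · exact hqxy.eq
        · exact hqxy.symm.eq
        · rfl
      intro v
      have hv := hle (htop' ▸ mem_top v)
      exact ⟨mem_centralizer_singleton_iff.mp hv.1, mem_centralizer_singleton_iff.mp hv.2⟩
    intro a b
    rw [← QuotientGroup.eq_one_iff, ← QuotientGroup.mk'_apply, map_commutatorElement,
      commutatorElement_eq_one_iff_mul_comm]
    have hle : X ⊔ zpowers y ≤ (centralizer {q a}).comap q := by
      refine sup_le (sup_le (fun v hv => ?_) (zpowers_le.mpr ?_)) (zpowers_le.mpr ?_) <;>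
        refine mem_centralizer_singleton_iff.mpr ?_
      · exact ((show Commute v a from (mem_center_iff.mp hv a).symm).map q).eq
      · exact (hgen a).1.symm.eq
      · exact (hgen a).2.symm.eq
    exact (mem_centralizer_singleton_iff.mp (hle (htop' ▸ mem_top b))).symm
  have hbot := invariant_small hnd hR σ hσ (zpowers c)
    (fun v hv => by
      obtain ⟨i, rfl⟩ := mem_zpowers_iff.mp hv
      rw [map_zpow, hcdef, map_commutatorElement]
      exact zpow_mem (hall' _ _) i)
    (fun v hv h => hfree v (zpowers_le.mpr (hR' x y) hv) h)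
    (by rw [Nat.card_zpowers]; exact Nat.le_of_dvd hp.out.pos (orderOf_dvd_of_pow_eq_one ((hΩ _).mpr (hR' x y))))
  exact hxy (commutatorElement_eq_one_iff_mul_comm.mp (mem_bot.mp (hbot ▸ mem_zpowers c)))

/-- The rank two case. -/
theorem rank_two_prime {R : Type u} [Group R] [Finite R] (hp2 : p ≠ 2) (hR : IsPGroup p R)
    (hr : Cfsg.PRankLE p 2 R) (hnd : ¬ ℓ ∣ p * (p - 1)) (b : MulAut R) (hb : b ^ ℓ = 1) (hb1 : b ≠ 1) :
    ℓ ∣ p + 1 ∧ ((∀ N : Subgroup R, N.Normal → (∀ n ∈ N, b n ∈ N) → (∀ g : R, g⁻¹ * b g ∈ N) → N = ⊤) →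
      (¬ ∀ x y : R, x * y = y * x) → Nat.card R = p ^ 3) := by
  classical
  have hbo : (orderOf b).Coprime p :=
    ((Nat.coprime_primes hl.out hp.out).mpr fun h => hnd (by rw [h]; exact dvd_mul_right p _)).coprime_dvd_left
      (orderOf_dvd_of_pow_eq_one hb)
  obtain ⟨V, _, _, q, hV, hVc, hlift⟩ := exists_small_rep hp2 hR hr
  have hq1 : q b ≠ 1 := fun h => hb1 (hlift b hbo h)
  refine ⟨(fpf_of_small hnd hV hVc (q b) (by rw [← map_pow, hb, map_one]) hq1).2.2, fun hgen hnc => ?_⟩
  obtain ⟨H, hH, hH1, hH2, hH3⟩ := Thompson.exists_critical hR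
  haveI := hH
  have hcl : ⁅commutator H, (⊤ : Subgroup H)⁆ = ⊥ := by
    rw [commutator_eq_bot_iff_le_centralizer, coe_top, centralizer_univ, _root_.commutator_def, commutator_le]
    exact fun x _ y _ => mem_center_iff.mpr fun z => Subtype.ext
      (mem_centralizer_iff.mp (hH2 (commutator_mem_commutator x.2 (mem_top (y : R)))).2 (z : R) z.2)
  let W : Subgroup R :=
    { carrier := {x | x ∈ H ∧ x ^ p = 1}
      one_mem' := ⟨one_mem _, one_pow p⟩
      mul_mem' := fun {a c} ha hc => ⟨mul_mem ha.1 hc.1, by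
        have := Thompson.pow_mul_eq_one_class_two hp2 hcl (x := (⟨a, ha.1⟩ : H)) (y := ⟨c, hc.1⟩)
          (Subtype.ext (by simpa using ha.2)) (Subtype.ext (by simpa using hc.2))
        simpa using congrArg Subtype.val this⟩
      inv_mem' := fun {a} ha => ⟨inv_mem ha.1, by rw [inv_pow, ha.2, inv_one]⟩ }
  haveI hWc : W.Characteristic := characteristic_iff_le_comap.mpr fun φ x hx =>
    ⟨(SetLike.ext_iff.mp (hH.fixed φ) x).mpr hx.1, by
      show φ.toMonoidHom x ^ p = 1
      rw [← map_pow, hx.2, map_one]⟩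
  have hWb : ∀ w ∈ W, b w ∈ W := fun w hw => (SetLike.ext_iff.mp (hWc.fixed b) w).mpr hw
  have hWexp : ∀ w : W, w ^ p = 1 := fun w => Subtype.ext ((SubmonoidClass.coe_pow w p).trans w.2.2)
  have hWr : Cfsg.PRankLE p 2 W := fun B hB hBp => by
    haveI := hB
    rw [← card_map_of_injective W.subtype_injective]
    refine hr (B.map W.subtype) inferInstance ?_
    rintro _ ⟨c, hc, rfl⟩
    rw [← map_pow, hBp c hc, map_one]
  let τ : MulAut W := charRestrict W b
  have hτ : τ ^ ℓ = 1 := by rw [← map_pow, hb, map_one]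
  have hτ1 : τ ≠ 1 := by
    intro h
    refine hb1 (Cfsg.Agent.S0121.result hR H hH hH1 hH2 hH3 b hbo fun x hx => ?_)
    have h2 : charRestrict H b = 1 := by
      refine Cfsg.Agent.S0120.result hp2 (hR.to_subgroup H) _ (hbo.coprime_dvd_left (orderOf_map_dvd _ b)) ?_
      intro y hy
      have hy' : (y : R) ∈ W := ⟨y.2, by simpa using congrArg Subtype.val hy⟩
      have h3 := DFunLike.congr_fun h (⟨(y : R), hy'⟩ : W)
      refine Subtype.ext ?_
      exact congrArg (fun v : W => (v : R)) h3
    exact congrArg Subtype.val (DFunLike.congr_fun h2 (⟨x, hx⟩ : H))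
  rcases exponent_p_rank_two hWexp hWr with ⟨hcomm, hcard⟩ | ⟨hWnc, hZc, hWq⟩
  · exfalso
    letI : CommGroup W := { (inferInstance : Group W) with mul_comm := hcomm }
    obtain ⟨hW2, hfree, -⟩ := fpf_of_small hnd hWexp hcard τ hτ hτ1
    have hfree' : ∀ v ∈ W, b v = v → v = 1 := fun v hv h =>
      congrArg Subtype.val (hfree ⟨v, hv⟩ (Subtype.ext h))
    have hW1 : W ≠ ⊥ := fun h => by
      rw [h, card_bot] at hW2
      exact absurd hW2 (Nat.one_lt_pow two_ne_zero hp.out.one_lt).ne
    have hWZ : W ≤ center R := by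
      have hlow : ¬ Nat.card ↥(W ⊓ center R) ≤ p := fun hle => by
        have h1 := invariant_small hnd hR b hb (W ⊓ center R)
          (fun v hv => ⟨hWb v hv.1, (SetLike.ext_iff.mp ((inferInstance : (center R).Characteristic).fixed b) v).mpr hv.2⟩)
          (fun v hv h => hfree' v hv.1 h) hle
        obtain ⟨w, hw, hwc, hwo⟩ := Thompson.exists_central_order_p hR hW1
        have : w ∈ W ⊓ center R := ⟨hw, hwc⟩
        rw [h1, mem_bot] at this
        exact hp.out.ne_one (by rw [← hwo, this, orderOf_one])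
      have heq : W ⊓ center R = W := by
        refine eq_of_le_of_card_ge inf_le_left ?_
        obtain ⟨i, hi⟩ := IsPGroup.iff_card.mp (hR.to_subgroup (W ⊓ center R))
        rw [hi] at hlow ⊢
        rw [hW2]
        refine Nat.pow_le_pow_right hp.out.pos ?_
        by_contra h
        have h1 : i ≤ 1 := by omega
        exact hlow (by simpa using Nat.pow_le_pow_right hp.out.pos h1)
      exact inf_eq_left.mp heq
    have hΩ : ∀ y : R, y ^ p = 1 ↔ y ∈ W := fun y => by
      refine ⟨fun hy => ?_, fun h => h.2⟩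
      by_contra hyW
      have hwy : ∀ w ∈ W, Commute w y := fun w hw => (mem_center_iff.mp (hWZ hw) y).symm
      haveI : W.Normal := inferInstance
      let B : Subgroup R := W ⊔ zpowers y
      have hB : IsMulCommutative B := by
        rw [← le_centralizer_iff_isMulCommutative]
        refine sup_le ?_ ?_ <;> rw [le_centralizer_iff] <;> refine sup_le ?_ ?_
        · exact hWZ.trans (center_le_centralizer _)
        · exact zpowers_le.mpr (mem_centralizer_iff.mpr fun w hw => (hwy w hw).eq)
        · exact hWZ.trans (center_le_centralizer _)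
        · exact le_centralizer_iff_isMulCommutative.mpr inferInstance
      have hBp : ∀ v ∈ B, v ^ p = 1 := fun v hv => by
        obtain ⟨w, hw, u, hu, rfl⟩ := mem_sup_of_normal_left.mp hv
        obtain ⟨i, rfl⟩ := mem_zpowers_iff.mp hu
        rw [((hwy w hw).zpow_right i).mul_pow, hw.2, one_mul, ← zpow_natCast, ← _root_.zpow_mul, mul_comm,
          _root_.zpow_mul, zpow_natCast, hy, one_zpow]
      have hlt : W < B := lt_of_le_of_ne le_sup_left fun e => hyW (e ▸ mem_sup_right (mem_zpowers y))
      have h1 := (Thompson.card_mul_p_le hR hlt).trans (hr B hB hBp)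
      rw [hW2] at h1
      nlinarith [hp.out.two_le, Nat.pos_of_ne_zero (pow_ne_zero 2 hp.out.ne_zero)]
    exact hnc (comm_of_pCentral hp2 hnd _ rfl hR b hb W hΩ hWZ hcard hfree')
  · -- `W` is extraspecial of order `p³`
    have hZmap : (center W).map W.subtype ≤ center R := by
      rintro _ ⟨z, hz, rfl⟩
      haveI : ((center W).map W.subtype).Normal := inferInstance
      have hne : (center W).map W.subtype ≠ ⊥ := fun h => by
        have h1 : Nat.card ((center W).map W.subtype) = Nat.card (center W) :=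
          card_map_of_injective W.subtype_injective
        rw [h, card_bot, hZc] at h1
        exact hp.out.ne_one h1.symm
      obtain ⟨w, hw, hwc, hwo⟩ := Thompson.exists_central_order_p hR hne
      have hgen' : zpowers w = (center W).map W.subtype := eq_of_le_of_card_ge (zpowers_le.mpr hw)
        (by rw [card_map_of_injective W.subtype_injective, hZc, Nat.card_zpowers, hwo])
      exact zpowers_le.mpr hwc (hgen' ▸ mem_map_of_mem W.subtype hz)
    let Z := (center W).map W.subtype
    have hWinner : ∀ g : R, ∀ w ∈ W, ⁅g, w⁆ ∈ Z := by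
      let ρ : R →* MulAut (W ⧸ center W) := (charQuotient (center W)).comp MulAut.conjNormal
      let τ' : MulAut (W ⧸ center W) := charQuotient (center W) τ
      let Y : Subgroup (W ⧸ center W) :=
        { carrier := {v | ∀ g, ρ g v = v}
          one_mem' := fun g => map_one _
          mul_mem' := fun {x y} hx hy g => by rw [map_mul, hx g, hy g]
          inv_mem' := fun {x} hx g => by rw [map_inv, hx g] }
      haveI : Y.Normal := ⟨fun v hv u => by
        have hqc : ∀ x y : W ⧸ center W, x * y = y * x := by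
          obtain ⟨i, hi⟩ := IsPGroup.iff_card.mp ((hR.to_subgroup W).to_quotient (center W))
          have h2 : i ≤ 2 := (Nat.pow_le_pow_iff_right hp.out.one_lt).mp (hi ▸ hWq)
          intro x y
          interval_cases i
          · haveI : Subsingleton (W ⧸ center W) := (Nat.card_eq_one_iff_unique.mp (by simpa using hi)).1
            exact Subsingleton.elim _ _
          · haveI := isCyclic_of_prime_card (p := p) (by simpa using hi : Nat.card (W ⧸ center W) = p)
            exact (IsCyclic.commGroup (α := W ⧸ center W)).mul_comm x y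
          · exact (IsPGroup.isMulCommutative_of_card_eq_prime_sq hi).is_comm.comm x y
        rwa [hqc u v, mul_inv_cancel_right]⟩
      have hqc : ∀ x y : W ⧸ center W, x * y = y * x := by
        obtain ⟨i, hi⟩ := IsPGroup.iff_card.mp ((hR.to_subgroup W).to_quotient (center W))
        have h2 : i ≤ 2 := (Nat.pow_le_pow_iff_right hp.out.one_lt).mp (hi ▸ hWq)
        intro x y
        interval_cases i
        · haveI : Subsingleton (W ⧸ center W) := (Nat.card_eq_one_iff_unique.mp (by simpa using hi)).1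
          exact Subsingleton.elim _ _
        · haveI := isCyclic_of_prime_card (p := p) (by simpa using hi : Nat.card (W ⧸ center W) = p)
          exact (IsCyclic.commGroup (α := W ⧸ center W)).mul_comm x y
        · exact (IsPGroup.isMulCommutative_of_card_eq_prime_sq hi).is_comm.comm x y
      letI : CommGroup (W ⧸ center W) := { (inferInstance : Group (W ⧸ center W)) with mul_comm := hqc }
      have hqexp : ∀ v : W ⧸ center W, v ^ p = 1 := fun v => by
        induction v using QuotientGroup.induction_on with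
        | H x => rw [← QuotientGroup.mk_pow, hWexp]; rfl
      have hτ'1 : τ' ≠ 1 := by
        intro h
        refine hτ1 (MulEquiv.ext fun w => ?_)
        have hWp : IsPGroup p W := hR.to_subgroup W
        have hτo : (orderOf τ).Coprime p := hbo.coprime_dvd_left (orderOf_map_dvd (charRestrict W) b)
        have hmod : ∀ v : W, v⁻¹ * τ v ∈ center W := fun v =>
          QuotientGroup.eq.mp (DFunLike.congr_fun h (QuotientGroup.mk v)).symm
        obtain ⟨x, y, hxy⟩ : ∃ x y : W, ⁅x, y⁆ ≠ 1 := by
          by_contra hno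
          push Not at hno
          exact hWnc fun x y => commutatorElement_eq_one_iff_mul_comm.mp (hno x y)
        have hxyz : ⁅x, y⁆ ∈ center W := by
          rw [← QuotientGroup.eq_one_iff, ← QuotientGroup.mk'_apply, map_commutatorElement,
            commutatorElement_eq_one_iff_mul_comm]
          exact hqc _ _
        have hfix : τ ⁅x, y⁆ = ⁅x, y⁆ := by
          obtain ⟨z1, hz1, e1⟩ : ∃ z ∈ center W, τ x = x * z := ⟨_, hmod x, by group⟩
          obtain ⟨z2, hz2, e2⟩ : ∃ z ∈ center W, τ y = y * z := ⟨_, hmod y, by group⟩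
          rw [map_commutatorElement, e1, e2]
          have c1 : ∀ u, Commute z1 u := fun u => (mem_center_iff.mp hz1 u).symm
          have c2 : ∀ u, Commute z2 u := fun u => (mem_center_iff.mp hz2 u).symm
          simp only [commutatorElement_def, mul_inv_rev]
          calc x * z1 * (y * z2) * (z1⁻¹ * x⁻¹) * (z2⁻¹ * y⁻¹)
              = x * (z1 * (y * z2)) * z1⁻¹ * x⁻¹ * z2⁻¹ * y⁻¹ := by group
            _ = x * y * (z2 * x⁻¹) * z2⁻¹ * y⁻¹ := by rw [(c1 (y * z2)).eq]; group
            _ = x * y * x⁻¹ * y⁻¹ := by rw [(c2 x⁻¹).eq]; group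
        refine Thompson.eq_self_of_coprime hWp hτo ?_
        have hz' : zpowers ⁅x, y⁆ = center W := eq_of_le_of_card_ge (zpowers_le.mpr hxyz)
          (by rw [Nat.card_zpowers, hZc, orderOf_eq_prime (hWexp _) hxy])
        obtain ⟨i, hi⟩ := mem_zpowers_iff.mp (hz' ▸ hmod w)
        rw [← hi, map_zpow, hfix]
      have hτ' : τ' ^ ℓ = 1 := by rw [← map_pow, hτ, map_one]
      obtain ⟨hcard', hfree, -⟩ := fpf_of_small hnd hqexp hWq τ' hτ' hτ'1
      have hY1 : Y ≠ ⊥ := by
        letI : MulAction R (W ⧸ center W) := MulAction.compHom _ ρ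
        obtain ⟨v, hv, hv1⟩ := hR.exists_fixed_point_of_prime_dvd_card_of_fixed_point (W ⧸ center W)
          (hcard' ▸ dvd_pow_self p two_ne_zero) (a := (1 : W ⧸ center W)) (fun g => map_one (ρ g))
        exact fun h => hv1 (mem_bot.mp (h ▸ (show v ∈ Y from hv))).symm
      have hYinv : ∀ v ∈ Y, τ' v ∈ Y := by
        intro v hv g
        obtain ⟨w, rfl⟩ := QuotientGroup.mk_surjective v
        have h1 := hv (b⁻¹ g)
        have h2 : charQuotient (center W) (MulAut.conjNormal (b⁻¹ g) : MulAut W) (w : W ⧸ center W) =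
            ((MulAut.conjNormal (b⁻¹ g) : MulAut W) w : W ⧸ center W) := rfl
        show (((MulAut.conjNormal g : MulAut W) (τ w) : W) : W ⧸ center W) = ((τ w : W) : W ⧸ center W)
        have h3 : (MulAut.conjNormal g : MulAut W) (τ w) = τ ((MulAut.conjNormal (b⁻¹ g) : MulAut W) w) := by
          refine Subtype.ext ?_
          show g * b (w : R) * g⁻¹ = b (b⁻¹ g * (w : R) * (b⁻¹ g)⁻¹)
          rw [map_mul, map_mul, map_inv, MulAut.apply_inv_self]
        rw [h3]
        exact congrArg τ' h1
      have hYtop : Y = ⊤ := by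
        refine eq_top_of_card_eq _ ?_
        obtain ⟨i, hi⟩ := IsPGroup.iff_card.mp (((hR.to_subgroup W).to_quotient (center W)).to_subgroup Y)
        have hi2 : i ≤ 2 := (Nat.pow_le_pow_iff_right hp.out.one_lt).mp (hi ▸ hcard' ▸ Y.card_le_card_group)
        by_contra hne
        refine hY1 (invariant_small hnd ((hR.to_subgroup W).to_quotient (center W)) τ' hτ' Y hYinv
          (fun v _ h => hfree v h) ?_)
        rw [hi]
        rw [hi, hcard'] at hne
        have h1 : i ≤ 1 := by
          by_contra h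
          exact hne (by rw [show i = 2 by omega])
        simpa using Nat.pow_le_pow_right hp.out.pos h1
      intro g w hw
      have h1 : (⟨w, hw⟩ : W)⁻¹ * (MulAut.conjNormal g : MulAut W) ⟨w, hw⟩ ∈ center W :=
        QuotientGroup.eq.mp ((hYtop ▸ mem_top (QuotientGroup.mk (⟨w, hw⟩ : W)) :
          (QuotientGroup.mk (⟨w, hw⟩ : W)) ∈ Y) g).symm
      have h2 := mem_map_of_mem W.subtype h1
      rw [map_mul, map_inv] at h2
      have h3 : w⁻¹ * (g * w * g⁻¹) ∈ Z := h2
      have h4 := mem_center_iff.mp (hZmap h3) w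
      rw [show ⁅g, w⁆ = w * (w⁻¹ * (g * w * g⁻¹)) * w⁻¹ by rw [commutatorElement_def]; group, h4,
        mul_inv_cancel_right]
      exact h3
    let C : Subgroup R := centralizer (W : Set R)
    haveI : C.Normal := inferInstance
    have hWZ : W ⊓ C = Z := by
      ext v
      constructor
      · rintro ⟨hv, hvc⟩
        exact ⟨⟨v, hv⟩, mem_center_iff.mpr fun u => Subtype.ext (mem_centralizer_iff.mp hvc u u.2), rfl⟩
      · rintro ⟨u, hu, rfl⟩
        exact ⟨u.2, mem_centralizer_iff.mpr fun v hv => congrArg Subtype.val (mem_center_iff.mp hu ⟨v, hv⟩)⟩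
    have hWcard : Nat.card W ≤ p ^ 3 := by
      rw [← (center W).index_mul_card, index_eq_card, hZc, pow_succ p 2]
      exact Nat.mul_le_mul_right p hWq
    obtain ⟨x, y, hxy⟩ : ∃ x y : W, x * y ≠ y * x := by
      by_contra hno; push Not at hno; exact hWnc hno
    -- `W` is generated by `x`, `y` modulo its centre
    have hWgen : center W ⊔ zpowers x ⊔ zpowers y = ⊤ := by
      refine eq_top_of_card_eq _ (le_antisymm (card_le_card_group _) ?_)
      have hWp : IsPGroup p W := hR.to_subgroup W
      have h1 : center W < center W ⊔ zpowers x := lt_of_le_of_ne le_sup_left fun e =>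
        hxy (mem_center_iff.mp (e ▸ mem_sup_right (mem_zpowers x) : x ∈ center W) y).symm
      have h2 : center W ⊔ zpowers x < center W ⊔ zpowers x ⊔ zpowers y := lt_of_le_of_ne le_sup_left fun e => by
        have hy : y ∈ center W ⊔ zpowers x := e ▸ mem_sup_right (mem_zpowers y)
        have hle : center W ⊔ zpowers x ≤ centralizer {x} :=
          sup_le (center_le_centralizer _) (zpowers_le.mpr (mem_centralizer_singleton_iff.mpr rfl))
        exact hxy (mem_centralizer_singleton_iff.mp (hle hy)).symm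
      have h3 := (Nat.mul_le_mul_left p (Thompson.card_mul_p_le hWp h1)).trans (Thompson.card_mul_p_le hWp h2)
      rw [hZc, ← mul_assoc, ← pow_two, ← pow_succ] at h3
      exact hWcard.trans h3
    have hWC : W ⊔ C = ⊤ := by
      have hidx : C.index ≤ p ^ 2 := by
        rw [index_eq_card, pow_two]
        have hZp : Nat.card Z = p := by rw [card_map_of_injective W.subtype_injective, hZc]
        calc Nat.card (R ⧸ C) ≤ Nat.card (Z × Z) := by
              refine Nat.card_le_card_of_injective
                (fun g => ((⟨⁅g.out, (x : R)⁆, hWinner _ _ x.2⟩ : Z), (⟨⁅g.out, (y : R)⁆, hWinner _ _ y.2⟩ : Z)))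
                fun g h e => ?_
              simp only [Prod.mk.injEq, Subtype.mk.injEq] at e
              have key : ∀ w : R, ⁅g.out, w⁆ = ⁅h.out, w⁆ → g.out⁻¹ * h.out ∈ centralizer {w} := fun w e => by
                have e' : g.out * w * g.out⁻¹ = h.out * w * h.out⁻¹ := by
                  simpa [commutatorElement_def] using e
                refine mem_centralizer_singleton_iff.mpr ?_
                calc g.out⁻¹ * h.out * w = g.out⁻¹ * (h.out * w * h.out⁻¹) * h.out := by group
                  _ = w * (g.out⁻¹ * h.out) := by rw [← e']; group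
              rw [← g.out_eq, ← h.out_eq]
              refine QuotientGroup.eq.mpr (mem_centralizer_iff.mpr fun w hw => ?_)
              set c := g.out⁻¹ * h.out
              have hle : center W ⊔ zpowers x ⊔ zpowers y ≤ (centralizer {c}).comap W.subtype := by
                refine sup_le (sup_le (fun v hv => ?_) (zpowers_le.mpr ?_)) (zpowers_le.mpr ?_)
                · exact mem_centralizer_singleton_iff.mpr (mem_center_iff.mp (hZmap (mem_map_of_mem W.subtype hv)) c).symm
                · exact mem_centralizer_singleton_iff.mpr (mem_centralizer_singleton_iff.mp (key _ e.1)).symm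
                · exact mem_centralizer_singleton_iff.mpr (mem_centralizer_singleton_iff.mp (key _ e.2)).symm
              exact mem_centralizer_singleton_iff.mp (hle (hWgen ▸ mem_top (⟨w, hw⟩ : W)))
          _ = p * p := by rw [Nat.card_prod, hZp]
      haveI : W.Normal := inferInstance
      refine eq_top_of_card_eq _ (le_antisymm (card_le_card_group _) ?_)
      have h := Lib.Coprime.card_sup_mul_card_inf C W
      rw [hWZ, card_map_of_injective W.subtype_injective, hZc] at h
      have hWge : p ^ 3 ≤ Nat.card W := by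
        have hWp : IsPGroup p W := hR.to_subgroup W
        rw [← Nat.card_congr (Subgroup.topEquiv (G := W)).toEquiv, ← hWgen]
        have h1 : center W < center W ⊔ zpowers x := lt_of_le_of_ne le_sup_left fun e =>
          hxy (mem_center_iff.mp (e ▸ mem_sup_right (mem_zpowers x) : x ∈ center W) y).symm
        have h2 : center W ⊔ zpowers x < center W ⊔ zpowers x ⊔ zpowers y := lt_of_le_of_ne le_sup_left fun e => by
          have hy : y ∈ center W ⊔ zpowers x := e ▸ mem_sup_right (mem_zpowers y)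
          have hle : center W ⊔ zpowers x ≤ centralizer {x} :=
            sup_le (center_le_centralizer _) (zpowers_le.mpr (mem_centralizer_singleton_iff.mpr rfl))
          exact hxy (mem_centralizer_singleton_iff.mp (hle hy)).symm
        have h3 := (Nat.mul_le_mul_left p (Thompson.card_mul_p_le hWp h1)).trans (Thompson.card_mul_p_le hWp h2)
        rwa [hZc, ← mul_assoc, ← pow_two, ← pow_succ] at h3
      refine Nat.le_of_mul_le_mul_right ?_ hp.out.pos
      rw [← C.index_mul_card, h]
      calc C.index * Nat.card C * p ≤ p ^ 2 * Nat.card C * p :=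
            Nat.mul_le_mul_right _ (Nat.mul_le_mul_right _ hidx)
        _ = p ^ 3 * Nat.card C := by ring
        _ ≤ _ := Nat.mul_le_mul_right _ hWge
    have hCp : ∀ c ∈ C, c ^ p = 1 → c ∈ Z := by
      intro c hc hcp
      by_contra hcZ
      let B : Subgroup R := Z ⊔ zpowers (x : R) ⊔ zpowers c
      have hxc : Commute (x : R) c := mem_centralizer_iff.mp hc x x.2
      have hle : B ≤ centralizer (B : Set R) := by
        have a1 : ∀ g : R, ∀ z ∈ Z, Commute z g := fun g z hz => (mem_center_iff.mp (hZmap hz) g).symm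
        have hgen2 : ∀ v : R, v = (x : R) ∨ v = c → B ≤ centralizer {v} := by
          intro v hv
          refine sup_le (sup_le (fun z hz => mem_centralizer_singleton_iff.mpr (a1 v z hz).eq)
            (zpowers_le.mpr (mem_centralizer_singleton_iff.mpr ?_))) (zpowers_le.mpr (mem_centralizer_singleton_iff.mpr ?_))
          · rcases hv with rfl | rfl
            exacts [rfl, hxc.eq]
          · rcases hv with rfl | rfl
            exacts [hxc.symm.eq, rfl]
        refine sup_le (sup_le (hZmap.trans (center_le_centralizer _)) (zpowers_le.mpr ?_)) (zpowers_le.mpr ?_)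
        · exact mem_centralizer_iff.mpr fun v hv => mem_centralizer_singleton_iff.mp (hgen2 _ (Or.inl rfl) hv)
        · exact mem_centralizer_iff.mpr fun v hv => mem_centralizer_singleton_iff.mp (hgen2 _ (Or.inr rfl) hv)
      have hB : IsMulCommutative B := le_centralizer_iff_isMulCommutative.mp hle
      let E : Subgroup R :=
        { carrier := {v | v ∈ B ∧ v ^ p = 1}
          one_mem' := ⟨one_mem _, one_pow p⟩
          mul_mem' := fun {u v} hu hv => ⟨mul_mem hu.1 hv.1, by
            rw [(show Commute u v from mem_centralizer_iff.mp (hle hv.1) u hu.1).mul_pow, hu.2, hv.2, one_mul]⟩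
          inv_mem' := fun {u} hu => ⟨inv_mem hu.1, by rw [inv_pow, hu.2, inv_one]⟩ }
      have hBE : B ≤ E := by
        refine sup_le (sup_le (fun z hz => ⟨mem_sup_left (mem_sup_left hz), ?_⟩) (zpowers_le.mpr ⟨mem_sup_left (mem_sup_right (mem_zpowers _)), x.2.2⟩))
          (zpowers_le.mpr ⟨mem_sup_right (mem_zpowers c), hcp⟩)
        obtain ⟨u, -, rfl⟩ := hz
        exact u.2.2
      have h1 : Z < Z ⊔ zpowers (x : R) := lt_of_le_of_ne le_sup_left fun e => by
        obtain ⟨u, hu, hux⟩ := (e ▸ mem_sup_right (mem_zpowers (x : R)) : (x : R) ∈ Z)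
        rw [show u = x from Subtype.ext hux] at hu
        exact hxy (mem_center_iff.mp hu y).symm
      have h2 : Z ⊔ zpowers (x : R) < B := lt_of_le_of_ne le_sup_left fun e => by
        have hc' : c ∈ Z ⊔ zpowers (x : R) := e ▸ mem_sup_right (mem_zpowers c)
        have hle2 : Z ⊔ zpowers (x : R) ≤ W := sup_le (map_subtype_le _) (zpowers_le.mpr x.2)
        exact hcZ (hWZ.le ⟨hle2 hc', hc⟩)
      have h3 := ((Nat.mul_le_mul_left p (Thompson.card_mul_p_le hR h1)).trans (Thompson.card_mul_p_le hR h2)).trans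
        (hr B hB fun v hv => (hBE hv).2)
      rw [card_map_of_injective W.subtype_injective, hZc] at h3
      nlinarith [hp.out.two_le, Nat.pos_of_ne_zero (pow_ne_zero 2 hp.out.ne_zero)]
    haveI hCcyc : IsCyclic C := by
      have hp' : IsPGroup p C := hR.to_subgroup C
      have huniq : ∀ A B : Subgroup C, Nat.card A = p → Nat.card B = p → A = B := by
        have key : ∀ A : Subgroup C, Nat.card A = p → A.map C.subtype = Z := fun A hA => by
          refine eq_of_le_of_card_ge ?_ (by
            rw [card_map_of_injective C.subtype_injective, hA, card_map_of_injective W.subtype_injective, hZc])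
          rintro _ ⟨a, ha, rfl⟩
          refine hCp _ a.2 ?_
          have h := pow_card_eq_one' (x := (⟨a, ha⟩ : A))
          rw [hA] at h
          simpa using congrArg (fun v : A => ((v : C) : R)) h
        exact fun A B hA hB => map_injective C.subtype_injective ((key A hA).trans (key B hB).symm)
      rcases Cfsg.Agent.Lib.UniqueInvolution.isCyclic_or_quaternion hp' huniq with h | ⟨h2, -⟩
      · exact h
      · exact absurd h2 hp2
    have hCb : ∀ c ∈ C, b c ∈ C := fun c hc => mem_centralizer_iff.mpr fun w hw => by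
      obtain ⟨v, rfl⟩ := b.surjective w
      have hv : v ∈ W := (SetLike.ext_iff.mp (hWc.fixed b) v).mp hw
      rw [← map_mul, mem_centralizer_iff.mp hc v hv, map_mul]
    have hCfix : ∀ c ∈ C, b c = c := by
      let τC : MulAut C := FPF.restrictAut b hCb
      obtain ⟨m, hm⟩ := IsPGroup.iff_card.mp (hR.to_subgroup C)
      have hτC : τC ^ ℓ = 1 := by
        apply MulEquiv.ext
        intro v
        refine Subtype.ext ?_
        rw [FPF.restrictAut_pow, hb]
        rfl
      have h1 : τC = 1 := by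
        rw [← orderOf_eq_one_iff]
        refine Nat.eq_one_of_dvd_coprimes (a := ℓ) (b := Nat.card (MulAut C)) ?_ (orderOf_dvd_of_pow_eq_one hτC)
          (_root_.orderOf_dvd_natCard τC)
        rw [Nat.card_congr (IsCyclic.mulAutMulEquiv (G := C)).toEquiv, hm, Nat.card_eq_fintype_card, ZMod.card_units_eq_totient]
        rcases Nat.eq_zero_or_pos m with rfl | hm0
        · simp
        rw [Nat.totient_prime_pow hp.out hm0]
        refine Nat.Coprime.mul_right ((hl.out.coprime_iff_not_dvd.mpr fun h => hnd (h.mul_right _)).pow_right _) ?_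
        exact hl.out.coprime_iff_not_dvd.mpr fun h => hnd (h.mul_left p)
      intro c hc
      have h2 := congrArg Subtype.val (DFunLike.congr_fun h1 (⟨c, hc⟩ : C))
      rwa [FPF.restrictAut_apply] at h2
    have hWtop : W = ⊤ := by
      refine hgen W inferInstance hWb fun g => ?_
      obtain ⟨w, hw, c, hc, rfl⟩ := mem_sup_of_normal_left.mp (hWC ▸ mem_top g : g ∈ W ⊔ C)
      have hcw : Commute (w⁻¹ * b w) c := mem_centralizer_iff.mp hc _ (mul_mem (inv_mem hw) (hWb w hw))
      rw [map_mul, hCfix c hc, show (w * c)⁻¹ * (b w * c) = c⁻¹ * ((w⁻¹ * b w) * c) by group, hcw.eq,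
        inv_mul_cancel_left]
      exact mul_mem (inv_mem hw) (hWb w hw)
    have h1 : Nat.card R = Nat.card W := by rw [hWtop, Nat.card_congr Subgroup.topEquiv.toEquiv]
    refine le_antisymm (h1 ▸ hWcard) ?_
    rw [h1]
    have hWp : IsPGroup p W := hR.to_subgroup W
    rw [← Nat.card_congr (Subgroup.topEquiv (G := W)).toEquiv, ← hWgen]
    have e1 : center W < center W ⊔ zpowers x := lt_of_le_of_ne le_sup_left fun e =>
      hxy (mem_center_iff.mp (e ▸ mem_sup_right (mem_zpowers x) : x ∈ center W) y).symm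
    have e2 : center W ⊔ zpowers x < center W ⊔ zpowers x ⊔ zpowers y := lt_of_le_of_ne le_sup_left fun e => by
      have hy : y ∈ center W ⊔ zpowers x := e ▸ mem_sup_right (mem_zpowers y)
      have hle : center W ⊔ zpowers x ≤ centralizer {x} :=
        sup_le (center_le_centralizer _) (zpowers_le.mpr (mem_centralizer_singleton_iff.mpr rfl))
      exact hxy (mem_centralizer_singleton_iff.mp (hle hy)).symm
    have h3 := (Nat.mul_le_mul_left p (Thompson.card_mul_p_le hWp e1)).trans (Thompson.card_mul_p_le hWp e2)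
    rwa [hZc, ← mul_assoc, ← pow_two, ← pow_succ] at h3

end Cfsg.Agent.Lib.Hall
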