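import Cfsg.Agent.Lib.Thompson.HuppertMeta
import Cfsg.Agent.Lib.Hall.MetacyclicAct

/-! Odd coprime operators with `R = [R, A]` on `p`-groups of rank two (Gorenstein 5.4.15, BG 4.17). -/

set_option autoImplicit false

namespace Cfsg.Agent.Lib.Hall.RankTwoAct

open Subgroup
open scoped commutatorElement

universe u

variable {R : Type u} [Group R] [Finite R] {p : ℕ} [hp : Fact p.Prime] {A : Type*} [Group A] [Finite A]

omit [Finite R] hp in
theorem mul_comm_of_mem_cyclic {N : Subgroup R} (h : IsCyclic N) {x y : R} (hx : x ∈ N) (hy : y ∈ N) :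
    x * y = y * x :=
  congrArg Subtype.val (h.commGroup.mul_comm ⟨x, hx⟩ ⟨y, hy⟩)

omit [Finite R] hp in
/-- A cyclic subgroup invariant under inner automorphisms and the operators is central. -/
theorem cyclic_le_center (φ : A →* MulAut R) {N : Subgroup R} [N.Normal] (hN : IsCyclic N)
    (hinv : ∀ a, ∀ z ∈ N, φ a z ∈ N)
    (hgen : ∀ W : Subgroup R, (∀ a t, φ a t * t⁻¹ ∈ W) → W = ⊤) : N ≤ center R := by
  obtain ⟨c, hc⟩ := (Subgroup.isCyclic_iff_exists_zpowers_eq_top N).mp hN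
  intro z hz
  refine mem_center_iff.mpr fun g => ?_
  suffices hW : centralizer (N : Set R) = ⊤ from (mem_centralizer_iff.mp (hW.ge (mem_top g)) z hz).symm
  refine hgen _ fun a t => ?_
  subst hc
  refine mem_centralizer_iff.mpr fun w hw => ?_
  obtain ⟨i, rfl⟩ := mem_zpowers_iff.mp hw
  suffices h : Commute (φ a t * t⁻¹) c from (h.zpow_right i).eq.symm
  obtain ⟨k, hk⟩ := mem_zpowers_iff.mp ((inferInstance : (zpowers c).Normal).conj_mem c (mem_zpowers c) t)
  obtain ⟨m, hm⟩ := mem_zpowers_iff.mp (hinv a⁻¹ c (mem_zpowers c))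
  have hc1 : φ a (c ^ m) = c := by rw [hm, map_inv, MulAut.apply_inv_self]
  have h1 : φ a t * c * (φ a t)⁻¹ = c ^ k := by
    have h0 : t * c ^ m * t⁻¹ = (c ^ m) ^ k := by
      rw [← conj_zpow, ← hk, ← _root_.zpow_mul, ← _root_.zpow_mul, mul_comm]
    have h2 := congrArg (φ a) h0
    rwa [map_mul, map_mul, map_inv, hc1, map_zpow, hc1] at h2
  have h3 : t⁻¹ * c ^ k * t = c := by rw [hk]; group
  show φ a t * t⁻¹ * c = c * (φ a t * t⁻¹)
  calc φ a t * t⁻¹ * c = φ a t * (t⁻¹ * c ^ 1 * t) * t⁻¹ := by group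
    _ = _ := by
      have h4 : φ a t * t⁻¹ * c ^ k * (φ a t * t⁻¹)⁻¹ = c ^ k := by
        calc φ a t * t⁻¹ * c ^ k * (φ a t * t⁻¹)⁻¹ = φ a t * (t⁻¹ * c ^ k * t) * (φ a t)⁻¹ := by group
          _ = c ^ k := by rw [h3, h1]
      have h5 : φ a t * t⁻¹ * c * (φ a t * t⁻¹)⁻¹ = c := by
        obtain ⟨k', hk'⟩ := mem_zpowers_iff.mp
          ((inferInstance : (zpowers c).Normal).conj_mem c (mem_zpowers c) t⁻¹)
        have e : c = (c ^ k) ^ k' := by
          have h6 : (t * c * t⁻¹) ^ k' = (c ^ k) ^ k' := by rw [hk]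
          rw [conj_zpow, hk'] at h6
          rw [← h6]; group
        conv_lhs => rw [e, ← conj_zpow, h4]
        exact e.symm
      calc φ a t * (t⁻¹ * c ^ 1 * t) * t⁻¹ = φ a t * t⁻¹ * c * (φ a t * t⁻¹)⁻¹ * (φ a t * t⁻¹) := by group
        _ = c * (φ a t * t⁻¹) := by rw [h5]

omit [Finite R] hp in
/-- Commutators with central value are bilinear. -/
theorem commutator_zpow {a b : R} (ha : Commute ⁅a, b⁆ a) (hb : Commute ⁅a, b⁆ b) (i j : ℤ) :
    ⁅a ^ i, b ^ j⁆ = ⁅a, b⁆ ^ (i * j) := by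
  have h1 : a * b * a⁻¹ = ⁅a, b⁆ * b := by simp [commutatorElement_def]
  have h2 : a * b ^ j * a⁻¹ = ⁅a, b⁆ ^ j * b ^ j := by rw [← conj_zpow, h1, hb.mul_zpow]
  have h3 : b ^ j * a * (b ^ j)⁻¹ = ⁅a, b⁆ ^ (-j) * a := by
    calc b ^ j * a * (b ^ j)⁻¹ = b ^ j * (a * b ^ j * a⁻¹)⁻¹ * a := by group
      _ = _ := by rw [h2, mul_inv_rev, mul_inv_cancel_left, zpow_neg]
  have hc : Commute (⁅a, b⁆ ^ (-j)) a := ha.zpow_left _
  calc ⁅a ^ i, b ^ j⁆ = a ^ i * ((b ^ j * a * (b ^ j)⁻¹) ^ i)⁻¹ := by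
        rw [conj_zpow, commutatorElement_def]; group
    _ = a ^ i * (⁅a, b⁆ ^ (-j) * a) ^ (-i) := by rw [h3, zpow_neg (a := ⁅a, b⁆ ^ (-j) * a)]
    _ = a ^ i * (⁅a, b⁆ ^ (-j)) ^ (-i) * a ^ (-i) := by rw [hc.mul_zpow, mul_assoc]
    _ = (⁅a, b⁆ ^ (-j)) ^ (-i) * a ^ i * a ^ (-i) := by rw [(hc.zpow_zpow (-i) i).eq]
    _ = ⁅a, b⁆ ^ (i * j) := by rw [← _root_.zpow_mul, mul_assoc, ← zpow_add]; simp [mul_comm]

/-- The dichotomy. -/
theorem structure_of_act (φ : A →* MulAut R) (hR : IsPGroup p R) (h3p : 3 < p) (hr : Cfsg.PRankLE p 2 R)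
    (hcop : (Nat.card A).Coprime p) (hodd : Odd (Nat.card A))
    (hgen : ∀ W : Subgroup R, (∀ a t, φ a t * t⁻¹ ∈ W) → W = ⊤) :
    IsMulCommutative R ∨ ∃ R₁ R₂ : Subgroup R, R₁ ⊔ R₂ = ⊤ ∧ R₂ ≤ center R ∧
      ¬ IsMulCommutative R₁ ∧ Nat.card R₁ = p ^ 3 ∧ Monoid.exponent R₁ = p ∧ IsCyclic R₂ ∧
      Subgroup.closure {x : R | x ∈ R₂ ∧ x ^ p = 1} = ⁅R₁, R₁⁆ := by
  classical
  have hp2 : p ≠ 2 := by omega
  set U := Subgroup.closure {x : R | x ^ p = 1} with hU
  have hUeq : Cfsg.omegaOne p (⊤ : Subgroup R) = U := by simp [Cfsg.omegaOne, hU]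
  by_cases hsmall : Nat.card U ≤ p ^ 2
  · exact Or.inl (MetacyclicAct.comm_of_metacyclic φ hR hp2 hcop
      (Thompson.isMetacyclic_of_omega_le h3p hR (hUeq ▸ hsmall)) hgen)
  have hUp : ∀ u ∈ U, u ^ p = 1 := fun u hu => Thompson.pow_eq_one_of_mem_closure_rank_two h3p hR hr hu
  have hmemU : ∀ x : R, x ^ p = 1 → x ∈ U := fun x hx => subset_closure hx
  have hUexp : ∀ w : U, w ^ p = 1 := fun w => Subtype.ext (by simpa using hUp w w.2)
  haveI hUn : U.Normal := ⟨fun u hu g => hmemU _ (by rw [conj_pow, hUp u hu]; simp)⟩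
  have hUinv : ∀ a, ∀ u ∈ U, φ a u ∈ U := fun a u hu => hmemU _ (by rw [← map_pow, hUp u hu, map_one])
  rcases exponent_p_rank_two hUexp (Thompson.pRankLE_subgroup hr U) with ⟨-, h⟩ | ⟨hnc, hZc, hq⟩
  · exact absurd h hsmall
  set Z := (center U).map U.subtype with hZ
  have hZp : Nat.card Z = p := (card_map_of_injective U.subtype_injective).trans hZc
  have hZU : Z ≤ U := map_subtype_le _
  have hZmem : ∀ z ∈ U, (z ∈ Z ↔ ∀ u ∈ U, u * z = z * u) := fun z hz => by
    constructor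
    · rintro ⟨w, hw, rfl⟩ u hu
      exact congrArg Subtype.val (mem_center_iff.mp hw ⟨u, hu⟩)
    · exact fun h => ⟨⟨z, hz⟩, mem_center_iff.mpr fun u => Subtype.ext (h u u.2), rfl⟩
  haveI hZn : Z.Normal := by
    rw [hZ]; infer_instance
  have hZR : Z ≤ center R := by
    obtain ⟨w, hw, hwc, hwo⟩ := Thompson.exists_central_order_p hR (N := Z) fun h => by
      rw [h, card_bot] at hZp; exact hp.out.ne_one hZp.symm
    rw [← eq_of_le_of_card_ge (zpowers_le.mpr hw) (by rw [Nat.card_zpowers, hwo, hZp])]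
    exact zpowers_le.mpr hwc
  have hZinv : ∀ a, ∀ z ∈ Z, φ a z ∈ Z := fun a z hz => by
    refine (hZmem _ (hUinv a z (hZU hz))).mpr fun u hu => ?_
    have h := congrArg (φ a) ((hZmem z (hZU hz)).mp hz _ (hUinv a⁻¹ u hu))
    simpa using h
  -- `|U| = p ^ 3`
  obtain ⟨e, he⟩ := IsPGroup.iff_card.mp (hR.to_subgroup U)
  have hle3 : Nat.card U ≤ p ^ 3 := by
    rw [← (center U).card_mul_index, hZc, index_eq_card, pow_succ']
    exact Nat.mul_le_mul_left p hq
  have hU3 : Nat.card U = p ^ 3 := le_antisymm hle3 (by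
    rw [he] at hsmall ⊢
    refine Nat.pow_le_pow_right hp.out.pos ?_
    by_contra h
    exact hsmall (Nat.pow_le_pow_right hp.out.pos (by omega)))
  -- `C = C_R(U)` is cyclic and central
  set C := centralizer (U : Set R) with hC
  have hCcyc : IsCyclic C := by
    by_contra hncC
    obtain ⟨B, -, -, hBe, hBc⟩ := Thompson.exists_elemAbelian_normal hp2 (hR.to_subgroup C) (⊤ : Subgroup C)
      fun h => hncC (by haveI := h; exact isCyclic_of_surjective _ Subgroup.topEquiv.surjective)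
    have hle : B.map C.subtype ≤ Z := by
      rintro _ ⟨b, hb, rfl⟩
      have hbU : (b : R) ∈ U := hmemU _ (by simpa using congrArg Subtype.val (hBe.2 b hb))
      exact (hZmem _ hbU).mpr fun u hu => mem_centralizer_iff.mp b.2 u hu
    have := card_le_of_le hle
    rw [card_map_of_injective C.subtype_injective, hBc, hZp] at this
    have := hp.out.two_le
    nlinarith
  have hCinv : ∀ a, ∀ z ∈ C, φ a z ∈ C := fun a z hz => mem_centralizer_iff.mpr fun u hu => by
    have h := congrArg (φ a) (mem_centralizer_iff.mp hz _ (hUinv a⁻¹ u hu))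
    simpa using h
  haveI hCn : C.Normal := by rw [hC]; infer_instance
  have hCR : C ≤ center R := cyclic_le_center φ hCcyc hCinv hgen
  have hZC : Z ≤ C := fun z hz => mem_centralizer_iff.mpr fun u hu => (hZmem z (hZU hz)).mp hz u hu
  have hUcomm : ∀ u ∈ U, ∀ w ∈ U, ⁅u, w⁆ ∈ Z := fun u hu w hw => by
    have hQ : IsMulCommutative (U ⧸ center U) := by
      obtain ⟨i, hi⟩ := IsPGroup.iff_card.mp ((hR.to_subgroup U).to_quotient (center U))
      have h2 := (center U).card_mul_index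
      rw [hZc, index_eq_card, hU3, pow_succ' p 2] at h2
      exact IsPGroup.isMulCommutative_of_card_eq_prime_sq (Nat.eq_of_mul_eq_mul_left hp.out.pos h2)
    refine ⟨⁅(⟨u, hu⟩ : U), ⟨w, hw⟩⁆, ?_, map_commutatorElement U.subtype _ _⟩
    refine (QuotientGroup.eq_one_iff _).mp ?_
    show QuotientGroup.mk' (center U) ⁅(⟨u, hu⟩ : U), ⟨w, hw⟩⁆ = 1
    rw [map_commutatorElement, commutatorElement_eq_one_iff_mul_comm]
    exact hQ.is_comm.comm _ _
  have hUU : ⁅U, U⁆ = Z := by
    have hle : ⁅U, U⁆ ≤ Z := commutator_le.mpr hUcomm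
    refine eq_of_le_of_card_ge hle ?_
    rw [hZp]
    rcases (hR.to_subgroup ⁅U, U⁆).card_eq_or_dvd with h | h
    · refine absurd ?_ hnc
      have hb := card_eq_one.mp h
      exact fun x y => Subtype.ext (commutatorElement_eq_one_iff_mul_comm.mp
        (mem_bot.mp (hb ▸ commutator_mem_commutator x.2 y.2)))
    · exact Nat.le_of_dvd Nat.card_pos h
  -- `D` acts trivially on `U / Z`
  set D := U ⊔ C with hD
  have hDmem : ∀ r : R, (∀ u ∈ U, ⁅r, u⁆ ∈ Z) → r ∈ D := by
    intro r hr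
    let D' : Subgroup R :=
      { carrier := {r | ∀ u ∈ U, ⁅r, u⁆ ∈ Z}
        one_mem' := fun u _ => by rw [commutatorElement_one_left]; exact one_mem _
        mul_mem' := fun {a b} ha hb u hu => by
          have e : ⁅a * b, u⁆ = a * ⁅b, u⁆ * a⁻¹ * ⁅a, u⁆ := by simp [commutatorElement_def, mul_assoc]
          rw [e]; exact Z.mul_mem (hZn.conj_mem _ (hb u hu) a) (ha u hu)
        inv_mem' := fun {a} ha u hu => by
          have e : ⁅a⁻¹, u⁆ = a⁻¹ * ⁅a, u⁆⁻¹ * a⁻¹⁻¹ := by simp [commutatorElement_def, mul_assoc]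
          rw [e]; exact hZn.conj_mem _ (Z.inv_mem (ha u hu)) a⁻¹ }
    have hDle : D ≤ D' := sup_le hUcomm fun c hc u hu => by
      rw [commutatorElement_eq_one_iff_mul_comm.mpr (mem_center_iff.mp (hCR hc) u).symm]
      exact one_mem _
    -- generators of `U`
    obtain ⟨x, hx, y, hy, hxy⟩ : ∃ x ∈ U, ∃ y ∈ U, ⁅x, y⁆ ≠ 1 := by
      by_contra hno
      push Not at hno
      exact hnc fun a b => Subtype.ext (commutatorElement_eq_one_iff_mul_comm.mp (hno a a.2 b b.2))
    set V := Subgroup.closure ({x, y} : Set R) with hV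
    have hVU : V ≤ U := (closure_le _).mpr (by simp [Set.insert_subset_iff, hx, hy])
    have hxV : x ∈ V := subset_closure (by simp)
    have hyV : y ∈ V := subset_closure (by simp)
    have hVeq : V = U := by
      refine eq_of_le_of_card_ge hVU ?_
      obtain ⟨i, hi⟩ := IsPGroup.iff_card.mp (hR.to_subgroup V)
      rw [hU3, hi]
      refine Nat.pow_le_pow_right hp.out.pos ?_
      by_contra h3
      refine hxy (commutatorElement_eq_one_iff_mul_comm.mpr ?_)
      interval_cases i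
      · haveI : Subsingleton V := (Nat.card_eq_one_iff_unique.mp (by simpa using hi)).1
        exact congrArg Subtype.val (Subsingleton.elim ((⟨x, hxV⟩ : V) * ⟨y, hyV⟩) (⟨y, hyV⟩ * ⟨x, hxV⟩))
      · haveI := isCyclic_of_prime_card (p := p) (by simpa using hi : Nat.card V = p)
        exact mul_comm_of_mem_cyclic this hxV hyV
      · exact congrArg Subtype.val
          ((IsPGroup.isMulCommutative_of_card_eq_prime_sq hi).is_comm.comm (⟨x, hxV⟩ : V) ⟨y, hyV⟩)
    let F : D' → Z × Z := fun r => (⟨⁅(r : R), x⁆, r.2 x hx⟩, ⟨⁅(r : R), y⁆, r.2 y hy⟩)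
    have hF : ∀ a b : D', F a = F b → (a : R)⁻¹ * b ∈ C := by
      intro a b hab
      have key : ∀ u : R, ⁅(a : R), u⁆ = ⁅(b : R), u⁆ → u ∈ centralizer ({(a : R)⁻¹ * b} : Set R) := by
        intro u h
        have e : (a : R) * u * (a : R)⁻¹ = b * u * (b : R)⁻¹ := by simpa [commutatorElement_def] using h
        refine mem_centralizer_singleton_iff.mpr ?_
        calc u * ((a : R)⁻¹ * b) = (a : R)⁻¹ * ((a : R) * u * (a : R)⁻¹) * b := by group
          _ = (a : R)⁻¹ * b * u := by rw [e]; group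
      have hle : V ≤ centralizer ({(a : R)⁻¹ * b} : Set R) := (closure_le _).mpr (by
        simp only [Set.insert_subset_iff, Set.singleton_subset_iff]
        exact ⟨key x (congrArg (fun q => ((Prod.fst q : Z) : R)) hab),
          key y (congrArg (fun q => ((Prod.snd q : Z) : R)) hab)⟩)
      exact mem_centralizer_iff.mpr fun u hu => mem_centralizer_singleton_iff.mp (hle (hVeq ▸ hu))
    have hcardD : Nat.card D' ≤ Nat.card D := by
      have hinj : Nat.card (D' ⧸ C.subgroupOf D') ≤ p * p := by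
        rw [← hZp, ← Nat.card_prod]
        refine Nat.card_le_card_of_injective (fun q => F q.out) fun q₁ q₂ h => ?_
        rw [← q₁.out_eq, ← q₂.out_eq]
        exact QuotientGroup.eq.mpr (hF _ _ h)
      have hCD : C ≤ D' := le_sup_right.trans hDle
      have h1 := (C.subgroupOf D').card_mul_index
      rw [Coprime.card_subgroupOf hCD, index_eq_card] at h1
      have h2 : Nat.card (U ⊔ C : Subgroup R) * Nat.card (U ⊓ C : Subgroup R) = Nat.card C * Nat.card U := by
        rw [Coprime.card_sup_mul_card_inf, mul_comm]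
      have h3 : Nat.card (U ⊓ C : Subgroup R) ≤ p := by
        rw [← hZp]
        refine card_le_of_le fun z hz => (hZmem z hz.1).mpr fun u hu => mem_centralizer_iff.mp hz.2 u hu
      rw [hU3] at h2
      refine Nat.le_of_mul_le_mul_right ?_ hp.out.pos
      calc Nat.card D' * p ≤ Nat.card C * (p * p) * p := by
            rw [← h1]; exact Nat.mul_le_mul_right p (Nat.mul_le_mul_left _ hinj)
        _ = Nat.card C * p ^ 3 := by ring
        _ = Nat.card D * Nat.card (U ⊓ C : Subgroup R) := h2.symm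
        _ ≤ Nat.card D * p := Nat.mul_le_mul_left _ h3
    exact (eq_of_le_of_card_ge hDle hcardD).ge (show r ∈ D' from hr)
  by_cases hDtop : D = ⊤
  · refine Or.inr ⟨U, C, hDtop, hCR, fun h => hnc fun a b => h.is_comm.comm a b, hU3, ?_, hCcyc, ?_⟩
    · refine (hp.out.eq_one_or_self_of_dvd _ (Monoid.exponent_dvd_iff_forall_pow_eq_one.mpr hUexp)).resolve_left
        fun h => hsmall ?_
      haveI := Monoid.exp_eq_one_iff.mp h
      rw [Nat.card_eq_one_iff_unique.mpr ⟨this, ⟨1⟩⟩]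
      exact Nat.one_le_pow _ _ hp.out.pos
    · rw [hUU]
      apply le_antisymm
      · rw [closure_le]
        rintro z ⟨hz, hzp⟩
        exact (hZmem z (hmemU z hzp)).mpr fun u hu => mem_centralizer_iff.mp hz u hu
      · exact fun z hz => subset_closure ⟨hZC hz, hUp z (hZU hz)⟩
  -- the remaining case is impossible
  exfalso
  set N := ⁅U, (⊤ : Subgroup R)⁆ ⊔ Z with hN
  have hNU : N ≤ U := sup_le (commutator_le_left U ⊤) hZU
  have hNne : N ≠ U := by
    intro h
    set π := QuotientGroup.mk' Z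
    haveI : (U.map π).Normal := hUn.map _ (QuotientGroup.mk'_surjective Z)
    have h1 : U.map π ≤ ⁅U.map π, (⊤ : Subgroup (R ⧸ Z))⁆ := by
      conv_lhs => rw [← h]
      rw [hN, Subgroup.map_sup, QuotientGroup.map_mk'_self, sup_bot_eq, Subgroup.map_commutator,
        map_top_of_surjective _ (QuotientGroup.mk'_surjective Z)]
    haveI : Group.IsNilpotent (R ⧸ Z) := (hR.to_quotient Z).isNilpotent
    have h2 := Transfer.eq_bot_of_le_commutator_top h1
    rw [Subgroup.map_eq_bot_iff, QuotientGroup.ker_mk'] at h2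
    have := card_le_of_le h2
    rw [hU3, hZp] at this
    have := hp.out.two_le
    nlinarith
  have hNlt : N < U := lt_of_le_of_ne hNU hNne
  have hNc : Nat.card N ≤ p ^ 2 := by
    have h := Thompson.card_mul_p_le hR hNlt
    rw [hU3, pow_succ' p 2] at h
    exact Nat.le_of_mul_le_mul_left h hp.out.pos
  have hNinv : ∀ a, ∀ n ∈ N, φ a n ∈ N := by
    intro a
    suffices h : N.map (φ a).toMonoidHom ≤ N from fun n hn => h (mem_map_of_mem _ hn)
    have hi : ∀ {S : Subgroup R}, (∀ s ∈ S, φ a s ∈ S) → S.map (φ a).toMonoidHom ≤ S :=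
      fun {S} hS => by rintro _ ⟨s, hs, rfl⟩; exact hS s hs
    rw [hN, Subgroup.map_sup, Subgroup.map_commutator]
    exact sup_le_sup (commutator_mono (hi (hUinv a)) le_top) (hi (hZinv a))
  haveI hNn : N.Normal := by rw [hN]; infer_instance
  have hNcomm : ∀ v ∈ N, ∀ w ∈ N, v * w = w * v := by
    intro v hv w hw
    obtain ⟨i, hi⟩ := IsPGroup.iff_card.mp (hR.to_subgroup N)
    have h2 : i ≤ 2 := (Nat.pow_le_pow_iff_right hp.out.one_lt).mp (hi ▸ hNc)
    interval_cases i
    · haveI : Subsingleton N := (Nat.card_eq_one_iff_unique.mp (by simpa using hi)).1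
      exact congrArg Subtype.val (Subsingleton.elim ((⟨v, hv⟩ : N) * ⟨w, hw⟩) (⟨w, hw⟩ * ⟨v, hv⟩))
    · haveI := isCyclic_of_prime_card (p := p) (by simpa using hi : Nat.card N = p)
      exact mul_comm_of_mem_cyclic this hv hw
    · exact congrArg Subtype.val
        ((IsPGroup.isMulCommutative_of_card_eq_prime_sq hi).is_comm.comm (⟨v, hv⟩ : N) ⟨w, hw⟩)
  have hNR : ∀ n ∈ N, ∀ r : R, ⁅n, r⁆ ∈ Z := by
    haveI : ⁅N, (⊤ : Subgroup R)⁆.Normal := inferInstance
    intro n hn r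
    have hlt : ⁅N, (⊤ : Subgroup R)⁆ ⊔ Z ≤ N := sup_le (commutator_le_left N ⊤) le_sup_right
    have hne : ⁅N, (⊤ : Subgroup R)⁆ ⊔ Z ≠ N ∨ N = Z := by
      by_cases hNZ : N = Z
      · exact Or.inr hNZ
      left
      intro h
      set π := QuotientGroup.mk' Z
      haveI : (N.map π).Normal := hNn.map _ (QuotientGroup.mk'_surjective Z)
      have h1 : N.map π ≤ ⁅N.map π, (⊤ : Subgroup (R ⧸ Z))⁆ := by
        conv_lhs => rw [← h]
        rw [Subgroup.map_sup, QuotientGroup.map_mk'_self, sup_bot_eq, Subgroup.map_commutator,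
          map_top_of_surjective _ (QuotientGroup.mk'_surjective Z)]
      haveI : Group.IsNilpotent (R ⧸ Z) := (hR.to_quotient Z).isNilpotent
      have h2 := Transfer.eq_bot_of_le_commutator_top h1
      rw [Subgroup.map_eq_bot_iff, QuotientGroup.ker_mk'] at h2
      exact hNZ (le_antisymm h2 le_sup_right)
    rcases hne with hne | hNZ
    · have h := Thompson.card_mul_p_le hR (lt_of_le_of_ne hlt hne)
      have h4 : Nat.card (⁅N, (⊤ : Subgroup R)⁆ ⊔ Z : Subgroup R) ≤ Nat.card Z := by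
        rw [hZp]
        exact Nat.le_of_mul_le_mul_left ((h.trans hNc).trans (pow_two p).le) hp.out.pos
      exact (eq_of_le_of_card_ge le_sup_right h4).ge (mem_sup_left (commutator_mem_commutator hn (mem_top r)))
    · rw [commutatorElement_eq_one_iff_mul_comm.mpr (mem_center_iff.mp (hZR (hNZ ▸ hn)) r).symm]
      exact one_mem _
  -- an element outside `D`, and `x = ⁅t, y⁆`
  obtain ⟨t, ht⟩ : ∃ t : R, t ∉ D := by
    by_contra h
    push Not at h
    exact hDtop (eq_top_iff.mpr fun r _ => h r)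
  have hRU : ∀ r : R, ∀ u ∈ U, ⁅r, u⁆ ∈ N := fun r u hu => by
    rw [← commutatorElement_inv]
    exact N.inv_mem (mem_sup_left (commutator_mem_commutator hu (mem_top r)))
  obtain ⟨y, hy, hty⟩ : ∃ y ∈ U, ⁅t, y⁆ ∉ Z := by
    by_contra h
    push Not at h
    exact ht (hDmem t h)
  set x := ⁅t, y⁆ with hx
  have hxN : x ∈ N := hRU t y hy
  have hyN : y ∉ N := fun h => hty (by
    rw [hx, ← commutatorElement_inv]; exact Z.inv_mem (hNR y h t))
  have hxy : ⁅y, x⁆ ≠ 1 := by
    intro h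
    refine hty ((hZmem x (hNU hxN)).mpr fun u hu => ?_)
    have hle : N ⊔ zpowers y = U := by
      refine eq_of_le_of_card_ge (sup_le hNU (zpowers_le.mpr hy)) ?_
      have hlt : N < N ⊔ zpowers y :=
        lt_of_le_of_ne le_sup_left fun e => hyN (e ▸ mem_sup_right (mem_zpowers y))
      refine le_trans ?_ (Thompson.card_mul_p_le hR hlt)
      rw [hU3, pow_succ']
      refine Nat.mul_le_mul_left p ?_
      have hzl : Z < N := lt_of_le_of_ne le_sup_right fun e => hty (e ▸ hxN)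
      refine le_trans ?_ (Thompson.card_mul_p_le hR hzl)
      rw [hZp, pow_two]
    have hc : N ⊔ zpowers y ≤ centralizer ({x} : Set R) :=
      sup_le (fun n hn => mem_centralizer_singleton_iff.mpr (hNcomm n hn x hxN))
        (zpowers_le.mpr (mem_centralizer_singleton_iff.mpr (commutatorElement_eq_one_iff_mul_comm.mp h)))
    exact mem_centralizer_singleton_iff.mp (hc (hle.ge hu))
  have hz0Z : ⁅y, x⁆ ∈ Z := hUcomm y hy x (hNU hxN)
  -- `R' ≤ N`
  haveI hDn : D.Normal := by rw [hD]; infer_instance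
  have hcardN : p ^ 2 ≤ Nat.card N := by
    refine le_trans (le_of_eq ?_) (Thompson.card_mul_p_le hR
      (lt_of_le_of_ne le_sup_right fun e => hty (e ▸ hxN) : Z < N))
    rw [hZp, pow_two]
  have hNgen : ∀ n ∈ N, ∃ i : ℤ, ∃ z ∈ Z, n = x ^ i * z := by
    intro n hn
    have hle : zpowers x ⊔ Z = N := by
      refine eq_of_le_of_card_ge (sup_le (zpowers_le.mpr hxN) le_sup_right) ?_
      have hlt : Z < zpowers x ⊔ Z :=
        lt_of_le_of_ne le_sup_right fun e => hty (e ▸ mem_sup_left (mem_zpowers x))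
      refine le_trans (hNc.trans (le_of_eq ?_)) (Thompson.card_mul_p_le hR hlt)
      rw [hZp, pow_two]
    obtain ⟨w, hw, z, hz, rfl⟩ := mem_sup_of_normal_right.mp (hle.ge hn)
    obtain ⟨i, rfl⟩ := mem_zpowers_iff.mp hw
    exact ⟨i, z, hz, rfl⟩
  have hUgen : ∀ u ∈ U, ∃ j : ℤ, ∃ n ∈ N, u = y ^ j * n := by
    intro u hu
    have hlt : N < zpowers y ⊔ N :=
      lt_of_le_of_ne le_sup_right fun e => hyN (e ▸ mem_sup_left (mem_zpowers y))
    have hle : zpowers y ⊔ N = U := by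
      refine eq_of_le_of_card_ge (sup_le (zpowers_le.mpr hy) hNU) ?_
      refine le_trans ?_ (Thompson.card_mul_p_le hR hlt)
      rw [hU3, pow_succ']
      exact Nat.mul_le_mul_left p hcardN
    obtain ⟨w, hw, n, hn, rfl⟩ := mem_sup_of_normal_right.mp (hle.ge hu)
    obtain ⟨j, rfl⟩ := mem_zpowers_iff.mp hw
    exact ⟨j, n, hn, rfl⟩
  -- commutators with `U` modulo `Z`
  set π := QuotientGroup.mk' Z with hπdef
  have hπ1 : ∀ z ∈ Z, π z = 1 := fun z hz => (QuotientGroup.eq_one_iff z).mpr hz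
  have hπN : ∀ n ∈ N, ∀ q : R ⧸ Z, Commute (π n) q := by
    intro n hn q
    obtain ⟨r, rfl⟩ := QuotientGroup.mk_surjective q
    refine commutatorElement_eq_one_iff_commute.mp ?_
    rw [← QuotientGroup.mk'_apply, ← hπdef, ← map_commutatorElement]
    exact hπ1 _ (hNR n hn r)
  have hbil : ∀ (r : R) (j : ℤ), ∀ n ∈ N, π ⁅r, y ^ j * n⁆ = π ⁅r, y⁆ ^ j := by
    intro r j n hn
    have e : ⁅r, y ^ j * n⁆ = ⁅r, y ^ j⁆ * (y ^ j * ⁅r, n⁆ * (y ^ j)⁻¹) := by
      simp [commutatorElement_def, mul_assoc]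
    have hz : ⁅r, n⁆ ∈ Z := by rw [← commutatorElement_inv]; exact Z.inv_mem (hNR n hn r)
    rw [e, map_mul, hπ1 _ (hZn.conj_mem _ hz _), mul_one, map_commutatorElement, map_zpow,
      map_commutatorElement]
    have hc := hπN _ (hRU r y hy)
    have := commutator_zpow (a := π r) (b := π y) (by rw [← map_commutatorElement]; exact hc _)
      (by rw [← map_commutatorElement]; exact hc _) 1 j
    simpa using this
  -- `R = ⟨t⟩ D`
  let ψ : R → R ⧸ Z := fun r => π ⁅r, y⁆
  have hψmul : ∀ r s, ψ (r * s) = ψ r * ψ s := by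
    intro r s
    have e : ⁅r * s, y⁆ = r * ⁅s, y⁆ * r⁻¹ * ⁅r, y⁆ := by simp [commutatorElement_def, mul_assoc]
    have hc : Commute (π r) (π ⁅s, y⁆) := (hπN _ (hRU s y hy) _).symm
    show π ⁅r * s, y⁆ = _
    rw [e, map_mul, map_mul, map_mul, map_inv, hc.eq, mul_inv_cancel_right,
      (hπN _ (hRU s y hy) _).eq]
  let ψh : R →* R ⧸ Z := MonoidHom.mk' ψ hψmul
  have hker : ∀ r, ψ r = 1 → r ∈ D := by
    intro r hr
    refine hDmem r fun u hu => ?_
    obtain ⟨j, n, hn, rfl⟩ := hUgen u hu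
    rw [← QuotientGroup.eq_one_iff, ← QuotientGroup.mk'_apply, ← hπdef, hbil r j n hn,
      show π ⁅r, y⁆ = 1 from hr, one_zpow]
  have hN' : ∀ r s : R, ⁅r, s⁆ ∈ N := by
    have hdec : ∀ r : R, ∃ i : ℤ, ∃ d ∈ D, r = t ^ i * d := by
      intro r
      obtain ⟨i, z, hz, e⟩ := hNgen _ (hRU r y hy)
      refine ⟨i, (t ^ i)⁻¹ * r, hker _ ?_, by group⟩
      show ψh ((t ^ i)⁻¹ * r) = 1
      rw [map_mul, map_inv, map_zpow]
      show (π ⁅t, y⁆ ^ i)⁻¹ * π ⁅r, y⁆ = 1
      rw [e, map_mul, map_zpow, hπ1 z hz, mul_one, ← hx, inv_mul_cancel]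
    intro r s
    obtain ⟨i, d, hd, rfl⟩ := hdec r
    obtain ⟨j, d', hd', rfl⟩ := hdec s
    rw [← QuotientGroup.eq_one_iff]
    show (QuotientGroup.mk' N) ⁅t ^ i * d, t ^ j * d'⁆ = 1
    rw [map_commutatorElement, commutatorElement_eq_one_iff_commute]
    have hcD : ∀ v ∈ D, ∀ q : R ⧸ N, Commute (QuotientGroup.mk' N v) q := by
      intro v hv q
      obtain ⟨s, rfl⟩ := QuotientGroup.mk_surjective q
      refine commutatorElement_eq_one_iff_commute.mp ?_
      rw [← QuotientGroup.mk'_apply, ← map_commutatorElement]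
      refine (QuotientGroup.eq_one_iff _).mpr ?_
      obtain ⟨u, hu, c, hc, rfl⟩ := mem_sup_of_normal_left.mp hv
      have e : ⁅u * c, s⁆ = u * ⁅c, s⁆ * u⁻¹ * ⁅u, s⁆ := by simp [commutatorElement_def, mul_assoc]
      rw [e, commutatorElement_eq_one_iff_mul_comm.mpr (mem_center_iff.mp (hCR hc) s).symm]
      simpa using (mem_sup_left (commutator_mem_commutator hu (mem_top s)) : ⁅u, s⁆ ∈ N)
    rw [map_mul, map_mul, map_zpow, map_zpow]
    exact ((Commute.zpow_zpow_self _ i j).mul_right (hcD d' hd' _).symm).mul_left (hcD d hd _)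
  -- the power map
  have hcomR : commutator R ≤ N := by
    rw [_root_.commutator_def]
    exact commutator_le.mpr fun r _ s _ => hN' r s
  have h3 : ⁅⁅commutator R, (⊤ : Subgroup R)⁆, (⊤ : Subgroup R)⁆ = ⊥ := by
    rw [commutator_eq_bot_iff_le_centralizer, coe_top, centralizer_univ, commutator_le]
    exact fun a ha b _ => hZR (hNR a (hcomR ha) b)
  have hpm : ∀ r s : R, (r * s) ^ p = r ^ p * s ^ p := by
    intro r s
    obtain ⟨c, a, b, hcc, hc, ha, hb, hac, hbc⟩ := Thompson.exists_class_three_data h3 r s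
    exact Thompson.pow_mul_eq_class_three h3p hc ha hb hac hbc (hUp _ (hNU (hcomR hcc)))
  let f : R →* R := MonoidHom.mk' (fun r => r ^ p) hpm
  have hfc : f.range ≤ center R := by
    rintro _ ⟨r, rfl⟩
    refine mem_center_iff.mpr fun g => ?_
    have h0 : ⁅g, r⁆ ^ p = 1 := hUp _ (hNU (hN' g r))
    have h1 : g * r ^ p * g⁻¹ = r ^ p := by
      rw [← conj_pow, show g * r * g⁻¹ = ⁅g, r⁆ * r by simp [commutatorElement_def], hpm, h0, one_mul]
    exact mul_inv_eq_iff_eq_mul.mp h1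
  have hQcyc : IsCyclic f.range := by
    by_contra hnq
    obtain ⟨B, -, -, hBe, hBc⟩ := Thompson.exists_elemAbelian_normal hp2 (hR.to_subgroup f.range)
      (⊤ : Subgroup f.range) fun h => hnq (by
        haveI := h; exact isCyclic_of_surjective _ Subgroup.topEquiv.surjective)
    have hle : B.map f.range.subtype ≤ Z := by
      rintro _ ⟨b, hb, rfl⟩
      have hbU : (b : R) ∈ U := hmemU _ (by simpa using congrArg Subtype.val (hBe.2 b hb))
      exact (hZmem _ hbU).mpr fun u _ => mem_center_iff.mp (hfc b.2) u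
    have := card_le_of_le hle
    rw [card_map_of_injective f.range.subtype_injective, hBc, hZp] at this
    have := hp.out.two_le
    nlinarith
  haveI hQn : f.range.Normal := Thompson.normal_of_le_center hfc
  obtain ⟨⟨g, hg⟩, hgq⟩ := hQcyc.exists_generator
  obtain ⟨t₀, ht₀⟩ := hg
  have ht₀' : t₀ ^ p = g := ht₀
  -- the bottom of the cyclic range
  have hQ1 : f.range ≠ ⊥ := by
    intro h
    exact ht (mem_sup_left (hmemU t (mem_bot.mp (h ▸ ⟨t, rfl⟩ : t ^ p ∈ (⊥ : Subgroup R)))))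
  have hZQ : Z ≤ f.range := by
    obtain ⟨w, hw, hwc, hwo⟩ := Thompson.exists_central_order_p hR hQ1
    have hwU : w ∈ U := hmemU w (hwo ▸ pow_orderOf_eq_one w)
    have hwZ : w ∈ Z := (hZmem w hwU).mpr fun u _ => mem_center_iff.mp hwc u
    rw [← eq_of_le_of_card_ge (zpowers_le.mpr hwZ) (by rw [Nat.card_zpowers, hwo, hZp])]
    exact zpowers_le.mpr hw
  -- every element of `R` is a power of `t₀` times an element of `U`
  have hdec : ∀ r : R, ∃ i : ℤ, ∃ u ∈ U, r = t₀ ^ i * u := by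
    intro r
    obtain ⟨i, hi⟩ := mem_zpowers_iff.mp (hgq ⟨f r, r, rfl⟩)
    have hi' : g ^ i = r ^ p := by
      have := congrArg Subtype.val hi
      rw [Subgroup.coe_zpow] at this
      exact this
    refine ⟨i, (t₀ ^ i)⁻¹ * r, hmemU _ ?_, by group⟩
    show f ((t₀ ^ i)⁻¹ * r) = 1
    rw [map_mul, map_inv, map_zpow]
    show ((t₀ ^ p) ^ i)⁻¹ * r ^ p = 1
    rw [ht₀', hi', inv_mul_cancel]
  have hψU : ∀ u ∈ U, ψh u = 1 := fun u hu => hπ1 _ (hUcomm u hu y hy)
  obtain ⟨i₀, u₀, hu₀, htd⟩ := hdec t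
  have hψt : π x = ψh t₀ ^ i₀ := by
    have h : ψh t = ψh t₀ ^ i₀ := by rw [htd, map_mul, map_zpow, hψU u₀ hu₀, mul_one]
    exact h
  have hz0 : ∀ w : R, Commute ⁅y, x⁆ w := fun w => (mem_center_iff.mp (hZR hz0Z) w).symm
  have hord : orderOf ⁅y, x⁆ = p := orderOf_eq_prime (hUp _ (hZU hz0Z)) hxy
  obtain ⟨k, hk⟩ := mem_zpowers_iff.mp (hgq ⟨⁅y, x⁆, hZQ hz0Z⟩)
  have hk' : g ^ k = ⁅y, x⁆ := by
    have := congrArg Subtype.val hk
    rw [Subgroup.coe_zpow] at this
    exact this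
  have key : ∀ a, φ a y * y⁻¹ ∈ N := by
    intro a
    obtain ⟨n, u₁, hu₁, hat⟩ := hdec (φ a t₀)
    obtain ⟨m, n', hn', hay⟩ := hUgen _ (hUinv a y hy)
    have hag : φ a g = g ^ n := by
      rw [← ht₀', map_pow, hat, hpm, hUp u₁ hu₁, mul_one, ← zpow_natCast, ← zpow_natCast t₀,
        ← _root_.zpow_mul, ← _root_.zpow_mul, mul_comm]
    have haz : φ a ⁅y, x⁆ = ⁅y, x⁆ ^ n := by
      rw [← hk', map_zpow, hag, ← _root_.zpow_mul, ← _root_.zpow_mul, mul_comm]
    have hψa : ψh (φ a t) = π x ^ n := by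
      rw [htd, map_mul, map_zpow, hat, map_mul, hψU _ (hUinv a u₀ hu₀), mul_one, map_zpow, map_mul, map_zpow,
        hψU u₁ hu₁, mul_one, hψt, ← _root_.zpow_mul, ← _root_.zpow_mul, mul_comm]
    have hax : π (φ a x) = π x ^ (n * m) := by
      rw [hx, map_commutatorElement, hay, hbil _ m n' hn', ← hx, show π ⁅φ a t, y⁆ = ψh (φ a t) from rfl, hψa,
        ← _root_.zpow_mul]
    have hz' : (x ^ (n * m))⁻¹ * φ a x ∈ Z := by
      rw [← QuotientGroup.eq_one_iff]
      show π ((x ^ (n * m))⁻¹ * φ a x) = 1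
      rw [map_mul, map_inv, map_zpow, hax, inv_mul_cancel]
    have hval : φ a ⁅y, x⁆ = ⁅y, x⁆ ^ (m * (n * m)) := by
      rw [map_commutatorElement, hay,
        show φ a x = x ^ (n * m) * ((x ^ (n * m))⁻¹ * φ a x) by group]
      generalize hzz : (x ^ (n * m))⁻¹ * φ a x = z' at hz'
      have hzc : Commute z' (y ^ m * n') := (mem_center_iff.mp (hZR hz') _).symm
      have hnc' : Commute n' (x ^ (n * m)) := hNcomm _ hn' _ (zpow_mem hxN _)
      calc ⁅y ^ m * n', x ^ (n * m) * z'⁆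
          = y ^ m * n' * x ^ (n * m) * (z' * (y ^ m * n')⁻¹) * z'⁻¹ * (x ^ (n * m))⁻¹ := by
            rw [commutatorElement_def]; group
        _ = y ^ m * (n' * x ^ (n * m)) * n'⁻¹ * (y ^ m)⁻¹ * (x ^ (n * m))⁻¹ := by
            rw [hzc.inv_right.eq]; group
        _ = ⁅y ^ m, x ^ (n * m)⁆ := by rw [hnc'.eq, commutatorElement_def]; group
        _ = _ := commutator_zpow (hz0 y) (hz0 x) m (n * m)
    have hdvd : (p : ℤ) ∣ n * ((m - 1) * (m + 1)) := by
      rw [← hord, orderOf_dvd_iff_zpow_eq_one, show n * ((m - 1) * (m + 1)) = m * (n * m) - n by ring,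
        zpow_sub, ← hval, haz, mul_inv_cancel]
    have hpP : Prime (p : ℤ) := Nat.prime_iff_prime_int.mp hp.out
    have hn0 : ¬ (p : ℤ) ∣ n := fun h => hxy (by
      have h1 : ⁅y, x⁆ ^ n = 1 := orderOf_dvd_iff_zpow_eq_one.mp (hord.symm ▸ h)
      rw [← haz] at h1
      exact (φ a).injective (h1.trans (map_one _).symm))
    have hfin : (p : ℤ) ∣ m - 1 := by
      rcases hpP.dvd_or_dvd ((hpP.dvd_or_dvd hdvd).resolve_left hn0) with h | h
      · exact h
      exfalso
      -- `φ a` would invert `y` modulo `N`, but has odd order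
      obtain ⟨d, hd⟩ := h
      have hinv : y * φ a y ∈ N := by
        rw [hay, ← mul_assoc, show y * y ^ m = 1 by
          rw [← zpow_one_add, show 1 + m = (p : ℤ) * d by omega, _root_.zpow_mul, zpow_natCast, hUp y hy, one_zpow],
          one_mul]
        exact hn'
      have hiter : ∀ j : ℕ, (Even j → y⁻¹ * (φ (a ^ j)) y ∈ N) ∧ (Odd j → y * (φ (a ^ j)) y ∈ N) := by
        intro j
        induction j with
        | zero =>
          refine ⟨fun _ => by simp, fun h => absurd h (by simp)⟩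
        | succ j ih =>
          constructor <;> intro hj
          · have h1 := ih.2 (by
              rcases Nat.even_or_odd j with h | h
              · exact absurd hj (by rw [Nat.not_even_iff_odd]; exact h.add_one)
              · exact h)
            have h2 := hNinv a _ h1
            rw [map_mul] at h2
            have h3 := N.mul_mem (hNn.conj_mem _ (N.inv_mem hinv) y⁻¹) (hNn.conj_mem _ h2 1)
            have h4 : φ (a ^ (j + 1)) y = φ a (φ (a ^ j) y) := by rw [pow_succ', map_mul]; rfl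
            rw [h4]
            have e : y⁻¹ * φ a (φ (a ^ j) y) =
                y⁻¹ * (y * φ a y)⁻¹ * y⁻¹⁻¹ * (1 * (φ a y * φ a (φ (a ^ j) y)) * 1⁻¹) := by group
            rw [e]; exact h3
          · have h1 := ih.1 (by
              rcases Nat.even_or_odd j with h | h
              · exact h
              · exact absurd hj (by rw [Nat.not_odd_iff_even]; exact h.add_one))
            have h2 := hNinv a _ h1
            rw [map_mul, map_inv] at h2
            have h4 : φ (a ^ (j + 1)) y = φ a (φ (a ^ j) y) := by rw [pow_succ', map_mul]; rfl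
            rw [h4, show y * φ a (φ (a ^ j) y) = (y * φ a y) * ((φ a y)⁻¹ * φ a (φ (a ^ j) y)) by group]
            exact N.mul_mem hinv h2
      have h1 := (hiter (Nat.card A)).2 hodd
      rw [pow_card_eq_one', map_one, MulAut.one_apply] at h1
      obtain ⟨c, hc⟩ := hp.out.odd_of_ne_two hp2
      have h2 : y ^ p = (y * y) ^ c * y := by rw [hc, pow_succ, pow_mul, pow_two]
      rw [hUp y hy] at h2
      refine hyN ?_
      rw [show y = ((y * y) ^ c)⁻¹ from eq_inv_of_mul_eq_one_right h2.symm]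
      exact N.inv_mem (pow_mem h1 c)
    obtain ⟨d, hd⟩ := hfin
    rw [hay, show y ^ m = y by
      rw [show m = (p : ℤ) * d + 1 by omega, zpow_add, _root_.zpow_mul, zpow_natCast, hUp y hy, one_zpow, one_mul,
        zpow_one]]
    exact hNn.conj_mem _ hn' y
  set F := N ⊔ f.range with hF
  have hyF : y ∈ F := by
    refine MetacyclicAct.mem_of_fixed φ hR hcop (hcomR.trans le_sup_left) ?_ hgen fun a => mem_sup_left (key a)
    intro a z hz
    obtain ⟨v, hv, w, ⟨r, rfl⟩, rfl⟩ := mem_sup_of_normal_left.mp hz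
    rw [map_mul]
    exact F.mul_mem (mem_sup_left (hNinv a v hv)) (mem_sup_right ⟨φ a r, (map_pow (φ a) r p).symm⟩)
  obtain ⟨v, hv, w, hw, hvw⟩ := mem_sup_of_normal_left.mp hyF
  refine hyN (hvw ▸ N.mul_mem hv (mem_sup_right ?_))
  have hwU : w ∈ U := by
    have := U.mul_mem (U.inv_mem (hNU hv)) hy
    rwa [← hvw, inv_mul_cancel_left] at this
  exact (hZmem w hwU).mpr fun u _ => mem_center_iff.mp (hfc hw) u

end Cfsg.Agent.Lib.Hall.RankTwoAct
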