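import Cfsg.Agent.Lib.GS.JoinSubnormal
import Cfsg.Agent.Lib.GS.Zipper
import Cfsg.Agent.Lib.Coprime.Basic

/-! Families of subnormal subgroups closed under conjugation. -/

set_option autoImplicit false

namespace Cfsg.Agent.Lib.Hall

open scoped Pointwise
open Subgroup

universe u

variable {G : Type u} [Group G]

theorem conj_smul_sSup (g : G) (S : Set (Subgroup G)) :
    MulAut.conj g • sSup S = ⨆ U ∈ S, MulAut.conj g • U := by
  show (sSup S).map (MulAut.conj g).toMonoidHom = ⨆ U ∈ S, U.map (MulAut.conj g).toMonoidHom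
  simp only [sSup_eq_iSup, Subgroup.map_iSup]

theorem isSubnormal_sSup [Finite G] (S : Set (Subgroup G)) (h : ∀ U ∈ S, U.IsSubnormal) :
    (sSup S).IsSubnormal := by
  induction S, S.toFinite using Set.Finite.induction_on with
  | empty => rw [sSup_empty]; exact IsSubnormal.bot
  | insert _ _ ih =>
    rw [sSup_insert]
    exact GS.isSubnormal_sup (h _ (Set.mem_insert _ _)) (ih fun U hU => h U (Set.mem_insert_of_mem _ hU))

/-- A proper subfamily of a conjugation closed family of subnormal subgroups has its join normalised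
by an outside member. -/
theorem exists_normalize [Finite G] (S S₀ : Set (Subgroup G)) (hS : ∀ U ∈ S, U.IsSubnormal)
    (hconj : ∀ U ∈ S, ∀ g : G, MulAut.conj g • U ∈ S) (h₀ : S₀ ⊂ S) :
    ∃ X ∈ S, X ∉ S₀ ∧ X ≤ normalizer ((sSup S₀ : Subgroup G) : Set G) := by
  by_cases hn : (sSup S₀).Normal
  · obtain ⟨X, hX, hX0⟩ := Set.exists_of_ssubset h₀
    exact ⟨X, hX, hX0, by rw [normalizer_eq_top]; exact le_top⟩
  obtain ⟨x, hx, hxT⟩ := GS.exists_conj_in_normalizer
    (isSubnormal_sSup S₀ fun U hU => hS U (h₀.1 hU)) hn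
  have hex : ∃ B ∈ S₀, ¬ MulAut.conj x • B ≤ sSup S₀ := by
    by_contra! h
    refine hx (GS.mem_normalizer_of_cmap_le ?_)
    show MulAut.conj x • sSup S₀ ≤ sSup S₀
    rw [conj_smul_sSup]
    exact iSup₂_le h
  obtain ⟨B, hB, hBT⟩ := hex
  exact ⟨MulAut.conj x • B, hconj B (h₀.1 hB) x, fun h => hBT (le_sSup h),
    le_trans (pointwise_smul_le_pointwise_smul_iff.mpr (le_sSup hB)) hxT⟩

end Cfsg.Agent.Lib.Hall
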